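import Mathlib
import Cfsg.Prelude.Def_Classical
import Cfsg.Prelude.Def_ClassicalGeometry
import Cfsg.Agent.H49.Spinor
import Cfsg.Agent.H49.NegOne
import Cfsg.Agent.H49.InvOmega
import Cfsg.Agent.H7.OmegaCenter

set_option autoImplicit false

namespace Cfsg.Agent.H45

open Matrix Cfsg.Agent.H49

section General

variable {ι : Type} [Fintype ι] [DecidableEq ι] {F : Type*} [Field F]

/-- Reflections in orthogonal vectors commute. -/
theorem reflG_commute (Q : QuadraticForm F (ι → F)) (v w : ι → F)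
    (h : QuadraticMap.polar (⇑Q) v w = 0) : Commute (reflG Q v) (reflG Q w) := by
  show reflG Q v * reflG Q w = reflG Q w * reflG Q v
  apply act_ext
  intro x
  have h' : QuadraticMap.polar (⇑Q) w v = 0 := by rw [QuadraticMap.polar_comm]; exact h
  rw [act_mul, act_mul, act_reflG Q w x, act_reflG Q v x, act_sub, act_sub, act_smul, act_smul,
    act_reflG Q v x, act_reflG Q v w, act_reflG Q w x, act_reflG Q w v]
  simp only [h, h', mul_zero, zero_smul, sub_zero]
  abel

/-- A product of reflections in pairwise orthogonal vectors is an involution. -/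
theorem prod_reflG_sq (Q : QuadraticForm F (ι → F)) (vs : List (ι → F))
    (hpw : vs.Pairwise (fun u w => QuadraticMap.polar (⇑Q) u w = 0)) :
    (vs.map (reflG Q)).prod * (vs.map (reflG Q)).prod = 1 := by
  induction vs with
  | nil => simp
  | cons v vs ih =>
    rw [List.pairwise_cons] at hpw
    rw [List.map_cons, List.prod_cons]
    have hc : Commute (reflG Q v) (vs.map (reflG Q)).prod := by
      apply Commute.list_prod_right
      intro x hx
      obtain ⟨w, hw, rfl⟩ := List.mem_map.mp hx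
      exact reflG_commute Q v w (hpw.1 w hw)
    rw [hc.symm.mul_mul_mul_comm, reflG_mul_self, ih hpw.2, one_mul]

theorem prod_refl_fix (Q : QuadraticForm F (ι → F)) (vs : List (ι → F)) (x : ι → F)
    (h : ∀ w ∈ vs, QuadraticMap.polar (⇑Q) w x = 0) :
    (vs.map (fun v => Cfsg.reflectionMatrix (⇑Q) v)).prod *ᵥ x = x := by
  induction vs with
  | nil => simp
  | cons v vs ih =>
    rw [List.map_cons, List.prod_cons, ← Matrix.mulVec_mulVec,
      ih (fun w hw => h w (List.mem_cons_of_mem _ hw)), reflectionMatrix_mulVec,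
      h v List.mem_cons_self, mul_zero, zero_smul, sub_zero]

theorem prod_refl_neg (Q : QuadraticForm F (ι → F)) (vs : List (ι → F))
    (hpw : vs.Pairwise (fun u w => QuadraticMap.polar (⇑Q) u w = 0)) (hne : ∀ v ∈ vs, Q v ≠ 0)
    (x : ι → F) (hx : x ∈ vs) :
    (vs.map (fun v => Cfsg.reflectionMatrix (⇑Q) v)).prod *ᵥ x = -x := by
  induction vs with
  | nil => simp at hx
  | cons v vs ih =>
    rw [List.pairwise_cons] at hpw
    rw [List.map_cons, List.prod_cons, ← Matrix.mulVec_mulVec]
    rcases List.mem_cons.mp hx with rfl | hx'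
    · rw [prod_refl_fix Q vs x (fun w hw => by rw [QuadraticMap.polar_comm]; exact hpw.1 w hw),
        reflectionMatrix_mulVec, polar_self']
      have e : (Q x)⁻¹ * (2 * Q x) = 2 := by
        rw [mul_comm, mul_assoc, mul_inv_cancel₀ (hne x List.mem_cons_self), mul_one]
      rw [e, two_smul]
      abel
    · rw [ih hpw.2 (fun w hw => hne w (List.mem_cons_of_mem _ hw)) hx', Matrix.mulVec_neg,
        reflectionMatrix_mulVec, hpw.1 x hx', mul_zero, zero_smul, sub_zero]

/-- The rank of `t - 1` for a product `t` of reflections in pairwise orthogonal vectors. -/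
theorem finrank_range_prod_refl (Q : QuadraticForm F (ι → F)) (h2 : (2 : F) ≠ 0)
    (vs : List (ι → F))
    (hpw : vs.Pairwise (fun u w => QuadraticMap.polar (⇑Q) u w = 0)) (hne : ∀ v ∈ vs, Q v ≠ 0) :
    Module.finrank F (LinearMap.range (Matrix.toLin'
      ((vs.map (fun v => Cfsg.reflectionMatrix (⇑Q) v)).prod - 1))) = vs.length := by
  have hrange : LinearMap.range (Matrix.toLin'
      ((vs.map (fun v => Cfsg.reflectionMatrix (⇑Q) v)).prod - 1)) =
      Submodule.span F (Set.range (fun i : Fin vs.length => vs.get i)) := by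
    apply le_antisymm
    · rintro _ ⟨x, rfl⟩
      rw [Matrix.toLin'_apply, Matrix.sub_mulVec, Matrix.one_mulVec,
        prod_refl_orthogonal Q vs hpw x, sub_sub_cancel_left]
      apply Submodule.neg_mem
      apply list_sum_mem
      intro y hy
      obtain ⟨v, hv, rfl⟩ := List.mem_map.mp hy
      apply Submodule.smul_mem
      apply Submodule.subset_span
      obtain ⟨i, hi⟩ := List.mem_iff_get.mp hv
      exact ⟨i, hi⟩
    · rw [Submodule.span_le]
      rintro _ ⟨i, rfl⟩
      refine ⟨(-2 : F)⁻¹ • vs.get i, ?_⟩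
      rw [Matrix.toLin'_apply, Matrix.sub_mulVec, Matrix.one_mulVec, Matrix.mulVec_smul,
        prod_refl_neg Q vs hpw hne _ (List.get_mem vs i)]
      have e1 : ((-2 : F)⁻¹) * (-2) = 1 := inv_mul_cancel₀ (neg_ne_zero.mpr h2)
      have e2 : (-2 : F)⁻¹ • -vs.get i - (-2 : F)⁻¹ • vs.get i =
          ((-2 : F)⁻¹ * (-2)) • vs.get i := by module
      rw [e2, e1, one_smul]
  rw [hrange]
  have hli : LinearIndependent F (fun i : Fin vs.length => vs.get i) := by
    apply LinearMap.linearIndependent_of_isOrthoᵢ (B := QuadraticMap.polarBilin Q)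
    · rw [LinearMap.isOrthoᵢ_def]
      intro i j hij
      rw [QuadraticMap.polarBilin_apply_apply]
      rcases lt_or_gt_of_ne hij with h | h
      · exact List.pairwise_iff_get.mp hpw i j h
      · rw [QuadraticMap.polar_comm]
        exact List.pairwise_iff_get.mp hpw j i h
    · intro i
      rw [QuadraticMap.polarBilin_apply_apply, polar_self']
      exact mul_ne_zero h2 (hne _ (List.get_mem vs i))
  rw [finrank_span_eq_card hli, Fintype.card_fin]

/-- The rank of `t - 1` is a conjugacy invariant. -/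
theorem finrank_range_conj {Qf : (ι → F) → F} (t s : ↥(Cfsg.isometryGroup F Qf))
    (h : IsConj t s) :
    Module.finrank F (LinearMap.range (Matrix.toLin'
      (((t : Matrix.GeneralLinearGroup ι F) : Matrix ι ι F) - 1))) =
    Module.finrank F (LinearMap.range (Matrix.toLin'
      (((s : Matrix.GeneralLinearGroup ι F) : Matrix ι ι F) - 1))) := by
  obtain ⟨g, hg⟩ := isConj_iff.mp h
  rw [range_conj_sub_one t s g hg]
  have hinj : Function.Injective
      (Matrix.mulVecLin ((g : Matrix.GeneralLinearGroup ι F) : Matrix ι ι F)) := by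
    intro x y hxy
    have h1 : act g x = act g y := hxy
    rw [← act_inv_act g x, h1, act_inv_act]
  exact (Submodule.equivMapOfInjective _ hinj _).finrank_eq

end General

section Odd

variable {F : Type*} [Field F] (m : ℕ)

/-- An orthogonal basis of the standard odd-dimensional form. -/
def obV : Unit ⊕ (Fin m ⊕ Fin m) → (Unit ⊕ (Fin m ⊕ Fin m) → F)
  | Sum.inl _ => Pi.single (Sum.inl ()) 1
  | Sum.inr (Sum.inl i) => Pi.single (Sum.inr (Sum.inl i)) 1 + Pi.single (Sum.inr (Sum.inr i)) 1
  | Sum.inr (Sum.inr i) => Pi.single (Sum.inr (Sum.inl i)) 1 - Pi.single (Sum.inr (Sum.inr i)) 1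

theorem qOdd_obV_inl : H7.qOdd m F (obV m (Sum.inl ())) = 1 := H7.qOdd_zero m

theorem qOdd_obV_a (i : Fin m) : H7.qOdd m F (obV m (Sum.inr (Sum.inl i))) = 1 := by
  show H7.qOdd m F (Pi.single (Sum.inr (Sum.inl i)) 1 + Pi.single (Sum.inr (Sum.inr i)) 1) = 1
  rw [H7.qf_add, H7.qOdd_single_inr, H7.qOdd_single_inr, H7.polar_qOdd_inl]
  simp

theorem qOdd_obV_b (i : Fin m) : H7.qOdd m F (obV m (Sum.inr (Sum.inr i))) = -1 := by
  show H7.qOdd m F (Pi.single (Sum.inr (Sum.inl i)) 1 - Pi.single (Sum.inr (Sum.inr i)) 1) = -1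
  rw [H7.qf_sub, H7.qOdd_single_inr, H7.qOdd_single_inr, H7.polar_qOdd_inl]
  simp

theorem qOdd_obV_ne (j : Unit ⊕ (Fin m ⊕ Fin m)) : H7.qOdd m F (obV m j) ≠ 0 := by
  rcases j with ⟨⟩ | i | i
  · rw [qOdd_obV_inl]; exact one_ne_zero
  · rw [qOdd_obV_a]; exact one_ne_zero
  · rw [qOdd_obV_b]; exact neg_ne_zero.mpr one_ne_zero

theorem polar_obV_a (i : Fin m) (y : Unit ⊕ (Fin m ⊕ Fin m) → F) :
    QuadraticMap.polar ⇑(H7.qOdd m F) (obV m (Sum.inr (Sum.inl i))) y =
      y (Sum.inr (Sum.inr i)) + y (Sum.inr (Sum.inl i)) := by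
  show QuadraticMap.polar ⇑(H7.qOdd m F)
    (Pi.single (Sum.inr (Sum.inl i)) 1 + Pi.single (Sum.inr (Sum.inr i)) 1) y = _
  rw [QuadraticMap.polar_add_left, H7.polar_qOdd_inl, H7.polar_qOdd_inr]

theorem polar_obV_b (i : Fin m) (y : Unit ⊕ (Fin m ⊕ Fin m) → F) :
    QuadraticMap.polar ⇑(H7.qOdd m F) (obV m (Sum.inr (Sum.inr i))) y =
      y (Sum.inr (Sum.inr i)) - y (Sum.inr (Sum.inl i)) := by
  show QuadraticMap.polar ⇑(H7.qOdd m F)
    (Pi.single (Sum.inr (Sum.inl i)) 1 - Pi.single (Sum.inr (Sum.inr i)) 1) y = _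
  rw [QuadraticMap.polar_sub_left, H7.polar_qOdd_inl, H7.polar_qOdd_inr]

theorem polar_obV (j j' : Unit ⊕ (Fin m ⊕ Fin m)) (h : j ≠ j') :
    QuadraticMap.polar ⇑(H7.qOdd m F) (obV m j) (obV m j') = 0 := by
  rcases j with ⟨⟩ | i | i
  · have e : obV m (Sum.inl ()) = (Pi.single (Sum.inl ()) 1 : Unit ⊕ (Fin m ⊕ Fin m) → F) := rfl
    rw [e, H7.polar_qOdd_zero]
    rcases j' with ⟨⟩ | i' | i'
    · exact absurd rfl h
    · simp [obV]
    · simp [obV]
  · rw [polar_obV_a]
    rcases j' with ⟨⟩ | i' | i'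
    · simp [obV]
    · have hii : i' ≠ i := fun hh => h (by rw [hh])
      simp [obV, hii.symm]
    · simp [obV, Pi.single_apply]
  · rw [polar_obV_b]
    rcases j' with ⟨⟩ | i' | i'
    · simp [obV]
    · simp [obV, Pi.single_apply]
    · have hii : i' ≠ i := fun hh => h (by rw [hh])
      simp [obV, hii.symm]

/-- The index list: `x₀`, the first `α` of the `a_i`, the first `β` of the `b_i`. -/
def idxList (α β : ℕ) : List (Unit ⊕ (Fin m ⊕ Fin m)) :=
  Sum.inl () :: (((List.finRange m).take α).map (fun i => Sum.inr (Sum.inl i)) ++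
    ((List.finRange m).take β).map (fun i => Sum.inr (Sum.inr i)))

theorem idxList_nodup (α β : ℕ) : (idxList m α β).Nodup := by
  unfold idxList
  rw [List.nodup_cons]
  refine ⟨?_, ?_⟩
  · intro hx
    rcases List.mem_append.mp hx with hx | hx
    · obtain ⟨i, _, hi⟩ := List.mem_map.mp hx
      exact Sum.inr_ne_inl hi
    · obtain ⟨i, _, hi⟩ := List.mem_map.mp hx
      exact Sum.inr_ne_inl hi
  apply List.Nodup.append
  · apply List.Nodup.map
    · intro i j hij
      simpa using hij
    · exact (List.nodup_finRange m).sublist (List.take_sublist _ _)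
  · apply List.Nodup.map
    · intro i j hij
      simpa using hij
    · exact (List.nodup_finRange m).sublist (List.take_sublist _ _)
  · intro x hx hx'
    obtain ⟨i, _, rfl⟩ := List.mem_map.mp hx
    obtain ⟨j, _, hj⟩ := List.mem_map.mp hx'
    simp at hj

theorem idxList_length (α β : ℕ) (hα : α ≤ m) (hβ : β ≤ m) :
    (idxList m α β).length = 1 + α + β := by
  unfold idxList
  rw [List.length_cons, List.length_append, List.length_map, List.length_map, List.length_take,
    List.length_take, List.length_finRange, min_eq_left hα, min_eq_left hβ]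
  omega

theorem idxList_norm_prod (α β : ℕ) (hβ : β ≤ m) :
    (((idxList m α β).map (obV m)).map (fun v => H7.qOdd m F v)).prod = (-1 : F) ^ β := by
  unfold idxList
  rw [List.map_cons, List.map_cons, List.prod_cons, List.map_append, List.map_append,
    List.prod_append, List.map_map, List.map_map, List.map_map, List.map_map, qOdd_obV_inl, one_mul]
  have e1 : ((fun v => H7.qOdd m F v) ∘ obV m) ∘ (fun i : Fin m => Sum.inr (Sum.inl i)) =
      fun _ => (1 : F) := by
    funext i
    exact qOdd_obV_a m i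
  have e2 : ((fun v => H7.qOdd m F v) ∘ obV m) ∘ (fun i : Fin m => Sum.inr (Sum.inr i)) =
      fun _ => (-1 : F) := by
    funext i
    exact qOdd_obV_b m i
  rw [e1, e2, List.map_const', List.map_const', List.prod_replicate, List.prod_replicate, one_pow,
    one_mul, List.length_take, List.length_finRange, min_eq_left hβ]

theorem idxList_pairwise (α β : ℕ) :
    ((idxList m α β).map (obV m)).Pairwise
      (fun u w => QuadraticMap.polar (⇑(H7.qOdd m F)) u w = 0) := by
  rw [List.pairwise_map]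
  exact (idxList_nodup m α β).imp (fun h => polar_obV m _ _ h)

/-- `m` pairwise non-conjugate involutions of `Ω_{2m+1}(q)`, `q` odd. -/
theorem omega_odd_invols [Fintype F] (h2 : (2 : F) ≠ 0) :
    ∃ t : Fin m → ↥(Cfsg.Omega F ⇑(H7.qOdd m F)),
      (∀ k, t k * t k = 1) ∧ (∀ k, t k ≠ 1) ∧ (∀ k l, IsConj (t k) (t l) → k = l) := by
  classical
  let L : Fin m → List (Unit ⊕ (Fin m ⊕ Fin m) → F) := fun k =>
    (idxList m (2 * (k.val / 2) + 1) (2 * ((k.val + 1) / 2))).map (obV m)
  have hlen : ∀ k : Fin m, (L k).length = 2 * (k.val + 1) := by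
    intro k
    have := k.2
    show ((idxList m (2 * (k.val / 2) + 1) (2 * ((k.val + 1) / 2))).map (obV m)).length = _
    rw [List.length_map, idxList_length m _ _ (by omega) (by omega)]
    omega
  have hpw : ∀ k : Fin m, (L k).Pairwise
      (fun u w => QuadraticMap.polar (⇑(H7.qOdd m F)) u w = 0) := fun k => idxList_pairwise m _ _
  have hne : ∀ k : Fin m, ∀ v ∈ L k, H7.qOdd m F v ≠ 0 := by
    intro k v hv
    obtain ⟨j, _, rfl⟩ := List.mem_map.mp hv
    exact qOdd_obV_ne m j
  let T : Fin m → ↥(Cfsg.isometryGroup F ⇑(H7.qOdd m F)) := fun k =>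
    ((L k).map (reflG (H7.qOdd m F))).prod
  have hmem : ∀ k, T k ∈ commutator ↥(Cfsg.isometryGroup F ⇑(H7.qOdd m F)) := by
    intro k
    have := k.2
    apply (mem_commutator_iff_of_prod_refl (H7.qOdd m F) h2 (T k) (L k) (hne k)
      (coe_prod_reflG (H7.qOdd m F) (L k))).mpr
    refine ⟨⟨k.val + 1, by rw [hlen]; ring⟩, ?_⟩
    show IsSquare (((idxList m (2 * (k.val / 2) + 1) (2 * ((k.val + 1) / 2))).map (obV m)).map
      (fun v => H7.qOdd m F v)).prod
    rw [idxList_norm_prod m _ _ (by omega), pow_mul, neg_one_sq, one_pow]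
    exact ⟨1, by ring⟩
  have hrank : ∀ k, Module.finrank F (LinearMap.range (Matrix.toLin'
      (((T k : Matrix.GeneralLinearGroup (Unit ⊕ (Fin m ⊕ Fin m)) F) :
        Matrix (Unit ⊕ (Fin m ⊕ Fin m)) (Unit ⊕ (Fin m ⊕ Fin m)) F) - 1))) = 2 * (k.val + 1) := by
    intro k
    rw [coe_prod_reflG (H7.qOdd m F) (L k),
      finrank_range_prod_refl (H7.qOdd m F) h2 (L k) (hpw k) (hne k), hlen]
  refine ⟨fun k => ⟨T k, hmem k⟩, ?_, ?_, ?_⟩
  · intro k
    apply Subtype.ext
    exact prod_reflG_sq (H7.qOdd m F) (L k) (hpw k)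
  · intro k hk
    have h1 : T k = 1 := congrArg Subtype.val hk
    have h3 := hrank k
    rw [h1] at h3
    have h4 : (((1 : ↥(Cfsg.isometryGroup F ⇑(H7.qOdd m F))) :
        Matrix.GeneralLinearGroup (Unit ⊕ (Fin m ⊕ Fin m)) F) :
        Matrix (Unit ⊕ (Fin m ⊕ Fin m)) (Unit ⊕ (Fin m ⊕ Fin m)) F) = 1 := rfl
    rw [h4, sub_self, map_zero, LinearMap.range_zero, finrank_bot] at h3
    omega
  · intro k l hkl
    have h1 : IsConj (T k) (T l) :=
      MonoidHom.map_isConj (Subgroup.subtype (Cfsg.Omega F ⇑(H7.qOdd m F))) hkl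
    have h3 := finrank_range_conj (T k) (T l) h1
    rw [hrank k, hrank l] at h3
    apply Fin.ext
    omega

end Odd

end Cfsg.Agent.H45
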