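import Mathlib
import Cfsg.Agent.H45.D4Defs
import Cfsg.Agent.Lib.Helper30.D4CD
import Cfsg.Agent.H75.D4Root
import Cfsg.Agent.H75.D4GenP
import Cfsg.Agent.H67.D4UpLow
import Cfsg.Agent.H86.D4Hom
import Cfsg.Agent.H80.D4Pair
import Cfsg.Agent.H35.D4Ker
import Cfsg.Agent.H40.D4Match
import Cfsg.Agent.H49.OmegaGen
import Cfsg.Agent.H49.SimpleForms

set_option autoImplicit false
set_option linter.unusedSectionVars false
set_option linter.unusedVariables false

/-!
# `D₄(F) ≅ PΩ₈⁺(F)` (helper45, assembly of the S1082 team project)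
-/

namespace Cfsg.Agent.H45.D4

open Matrix Cfsg.Agent.H49

variable {F : Type*} [Field F]

/-- The adjoint representation of `O₈⁺(F)` in the Chevalley basis. -/
noncomputable def rhoHom (F : Type*) [Field F] : O8 F →* Matrix.GeneralLinearGroup Idx F where
  toFun g := ⟨rho F (mat g), rho F (mat g⁻¹), by
      rw [← Cfsg.Agent.H86.D4.rho_mul Cfsg.Agent.H80.D4.kerPair _ _ (quad_mat g) (quad_mat g⁻¹), mat_mul_inv, Cfsg.Agent.H86.D4.rho_one], by
      rw [← Cfsg.Agent.H86.D4.rho_mul Cfsg.Agent.H80.D4.kerPair _ _ (quad_mat g⁻¹) (quad_mat g), mat_inv_mul, Cfsg.Agent.H86.D4.rho_one]⟩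
  map_one' := Units.ext (by
    show rho F (mat (1 : O8 F)) = 1
    rw [mat_one, Cfsg.Agent.H86.D4.rho_one])
  map_mul' g h := Units.ext (by
    show rho F (mat (g * h)) = rho F (mat g) * rho F (mat h)
    rw [mat_mul, Cfsg.Agent.H86.D4.rho_mul Cfsg.Agent.H80.D4.kerPair _ _ (quad_mat g) (quad_mat h)])

theorem rhoHom_val (g : O8 F) :
    ((rhoHom F g : Matrix.GeneralLinearGroup Idx F) : Matrix Idx Idx F) = rho F (mat g) := rfl

/-- The root elements of `Ω₈⁺(F)`. -/
noncomputable def xr (F : Type*) [Field F] (r : Fin 24) (t : F) : O8 F :=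
  (Cfsg.Agent.H75.D4.exists_rootElt (F := F) r t).choose

theorem mat_xr (r : Fin 24) (t : F) : mat (xr F r t) = gmat F r t :=
  (Cfsg.Agent.H75.D4.exists_rootElt (F := F) r t).choose_spec.1

theorem xr_mem (r : Fin 24) (t : F) : xr F r t ∈ commutator (O8 F) :=
  (Cfsg.Agent.H75.D4.exists_rootElt (F := F) r t).choose_spec.2

/-- `Ω₈⁺(F)` is generated by the root elements. -/
theorem commutator_eq_closure_xr :
    commutator (O8 F) = Subgroup.closure (Set.range fun p : Fin 24 × F => xr F p.1 p.2) := by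
  apply le_antisymm
  · have hK : ∀ (r : Fin 24) (t : F),
        xr F r t ∈ Subgroup.closure (Set.range fun p : Fin 24 × F => xr F p.1 p.2) :=
      fun r t => Subgroup.subset_closure ⟨(r, t), rfl⟩
    refine (Cfsg.Agent.Lib.Helper30.D4.commutator_le_closure_siegelSet_QP (F := F) 4 (by norm_num)).trans ?_
    rw [Subgroup.closure_le]
    exact Cfsg.Agent.H75.D4.siegel_le_of_up_low _
      (fun g S hg => Cfsg.Agent.H67.D4.up_mem (xr F) mat_xr _ hK g S hg)
      (fun g S hg => Cfsg.Agent.H67.D4.low_mem (xr F) mat_xr _ hK g S hg)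
  · rw [Subgroup.closure_le]
    rintro _ ⟨p, rfl⟩
    exact xr_mem p.1 p.2

/-- The Chevalley group, as a subgroup of `GL Idx F`. -/
def chevGroup (F : Type*) [Field F] : Subgroup (Matrix.GeneralLinearGroup Idx F) :=
  Cfsg.Lie.chevD4.group F

theorem chevGroup_eq :
    chevGroup F = Subgroup.closure {g : Matrix.GeneralLinearGroup Idx F |
      ∃ (r : Fin 24) (t : F), (g : Matrix Idx Idx F) = Cfsg.Lie.chevD4.xMat F r t} := rfl

theorem map_rhoHom_commutator : (commutator (O8 F)).map (rhoHom F) = chevGroup F := by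
  rw [commutator_eq_closure_xr, MonoidHom.map_closure, chevGroup_eq]
  congr 1
  ext g
  constructor
  · rintro ⟨_, ⟨p, rfl⟩, rfl⟩
    refine ⟨p.1, p.2, ?_⟩
    rw [rhoHom_val, mat_xr, Cfsg.Agent.H40.D4.rho_gmat]
  · rintro ⟨r, t, hg⟩
    refine ⟨xr F r t, ⟨(r, t), rfl⟩, ?_⟩
    apply Units.ext
    rw [rhoHom_val, mat_xr, Cfsg.Agent.H40.D4.rho_gmat, hg]

/-- A vector of norm one. -/
theorem exists_norm_one : ∃ v : I8 → F, Cfsg.quadFormPlus 4 F v = 1 := by
  refine ⟨Pi.single (Sum.inl 0) 1 + Pi.single (Sum.inr 0) 1, ?_⟩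
  simp [Cfsg.quadFormPlus, Fin.sum_univ_four]

theorem quad_smul (c : F) (v : I8 → F) :
    Cfsg.quadFormPlus 4 F (c • v) = c * c * Cfsg.quadFormPlus 4 F v := by
  simp only [Cfsg.quadFormPlus, Pi.smul_apply, smul_eq_mul, Finset.mul_sum]
  apply Finset.sum_congr rfl
  intro i _
  ring

/-- The restriction of the adjoint representation to `Ω`. -/
noncomputable def phi (F : Type*) [Field F] :
    ↥(commutator (O8 F)) →* Matrix.GeneralLinearGroup Idx F :=
  (rhoHom F).comp (Subgroup.subtype _)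

theorem phi_range : (phi F).range = chevGroup F := by
  rw [← map_rhoHom_commutator]
  ext g
  constructor
  · rintro ⟨x, rfl⟩
    exact ⟨x.1, x.2, rfl⟩
  · rintro ⟨x, hx, rfl⟩
    exact ⟨⟨x, hx⟩, rfl⟩

theorem phi_ker : (phi F).ker = Subgroup.center ↥(commutator (O8 F)) := by
  ext x
  rw [MonoidHom.mem_ker, Subgroup.mem_center_iff]
  constructor
  · intro hx
    have h1 : rho F (mat (x : O8 F)) = 1 := by
      have := congrArg (fun g : Matrix.GeneralLinearGroup Idx F => (g : Matrix Idx Idx F)) hx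
      exact this
    have h2 := Cfsg.Agent.H35.D4.rho_eq_one Cfsg.Agent.H80.D4.kerPair _ (quad_mat (x : O8 F)) h1
    intro y
    apply Subtype.ext
    apply mat_injective
    show mat ((y : O8 F) * (x : O8 F)) = mat ((x : O8 F) * (y : O8 F))
    rw [mat_mul, mat_mul]
    rcases h2 with h | h
    · rw [h, Matrix.mul_one, Matrix.one_mul]
    · rw [h, Matrix.mul_neg, Matrix.neg_mul, Matrix.mul_one, Matrix.one_mul]
  · intro hx
    have hz : ∀ r : Fin 24, mat (x : O8 F) * gmat F r 1 = gmat F r 1 * mat (x : O8 F) := by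
      intro r
      have h := hx ⟨xr F r 1, xr_mem r 1⟩
      have h' := congrArg (fun g : ↥(commutator (O8 F)) => mat (g : O8 F)) h
      simp only [Subgroup.coe_mul, mat_mul, mat_xr] at h'
      exact h'.symm
    obtain ⟨c, hc⟩ := Cfsg.Agent.H35.D4.scalar_of_commute _ hz
    obtain ⟨v, hv⟩ := exists_norm_one (F := F)
    have hq := quad_mat (x : O8 F) v
    rw [hc, Matrix.smul_mulVec, Matrix.one_mulVec, quad_smul, hv, mul_one] at hq
    have hc2 : c = 1 ∨ c = -1 := by
      have h0 : (c - 1) * (c + 1) = 0 := by linear_combination hq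
      rcases mul_eq_zero.mp h0 with h | h
      · left; linear_combination h
      · right; linear_combination h
    apply Units.ext
    show rho F (mat (x : O8 F)) = 1
    rw [hc]
    rcases hc2 with rfl | rfl
    · rw [one_smul, Cfsg.Agent.H86.D4.rho_one]
    · rw [neg_one_smul, Cfsg.Agent.H35.D4.rho_neg_one]

/-- `D₄(F) ≅ Ω/Z(Ω)`. -/
theorem chev_equiv :
    Nonempty (↥(chevGroup F) ≃* (↥(commutator (O8 F)) ⧸ Subgroup.center ↥(commutator (O8 F)))) := by
  have e1 : ↥(commutator (O8 F)) ⧸ (phi F).ker ≃* ↥(phi F).range :=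
    QuotientGroup.quotientKerEquivRange (phi F)
  have e2 : ↥(phi F).range ≃* ↥(chevGroup F) := MulEquiv.subgroupCongr phi_range
  have e3 : ↥(commutator (O8 F)) ⧸ Subgroup.center ↥(commutator (O8 F))
      ≃* ↥(commutator (O8 F)) ⧸ (phi F).ker :=
    QuotientGroup.quotientMulEquivOfEq phi_ker.symm
  exact ⟨(e3.trans (e1.trans e2)).symm⟩

/-- `D₄(F) ≅ PΩ₈⁺(F)`. -/
theorem chevD4_equiv_POmega (F : Type*) [Field F] :
    Nonempty (↥(Cfsg.Lie.chevD4.group F) ≃* Cfsg.POmega F (Cfsg.quadFormPlus 4 F)) :=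
  chev_equiv (F := F)

end Cfsg.Agent.H45.D4
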