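import Mathlib

set_option autoImplicit false

namespace Cfsg.Agent.H45

section GLOrder

variable (q r : ℕ) [Fact r.Prime]

theorem orderOf_zmod_pos (hrq : ¬ r ∣ q) : 0 < orderOf (q : ZMod r) := by
  rw [orderOf_pos_iff, isOfFinOrder_iff_pow_eq_one]
  have hr : r.Prime := Fact.out
  refine ⟨r - 1, by have := hr.two_le; omega, ?_⟩
  apply ZMod.pow_card_sub_one_eq_one
  rwa [Ne, ZMod.natCast_eq_zero_iff]

omit [Fact r.Prime] in
theorem q_pos_of_not_dvd (hrq : ¬ r ∣ q) : 1 ≤ q := by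
  rcases Nat.eq_zero_or_pos q with h | h
  · subst h; exact absurd (dvd_zero r) hrq
  · exact h

theorem dvd_pow_sub_one_iff (hrq : ¬ r ∣ q) (j : ℕ) :
    r ∣ q ^ j - 1 ↔ orderOf (q : ZMod r) ∣ j := by
  have hq := q_pos_of_not_dvd q r hrq
  have h1 : 1 ≤ q ^ j := Nat.one_le_pow _ _ hq
  rw [orderOf_dvd_iff_pow_eq_one, ← ZMod.natCast_eq_zero_iff, Nat.cast_sub h1, sub_eq_zero]
  push_cast
  rfl

/-- For `0 < t < r`: `v_r(q^(d t) - 1) = v_r(q^d - 1)` whenever `r ∣ q^d - 1`. -/
theorem factorization_pow_mul_sub_one (hrq : ¬ r ∣ q) (d t : ℕ) (hd : r ∣ q ^ d - 1)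
    (ht0 : 0 < t) (htr : t < r) :
    (q ^ (d * t) - 1).factorization r = (q ^ d - 1).factorization r := by
  have hr : r.Prime := Fact.out
  have hq := q_pos_of_not_dvd q r hrq
  have h1 : 1 ≤ q ^ d := Nat.one_le_pow _ _ hq
  have hgeom := geom_sum_mul_of_one_le h1 t
  rw [← pow_mul] at hgeom
  by_cases hd0 : q ^ d - 1 = 0
  · have : q ^ (d * t) - 1 = 0 := by rw [← hgeom, hd0, mul_zero]
    rw [this, hd0]
  have hsum : ¬ r ∣ ∑ i ∈ Finset.range t, (q ^ d) ^ i := by
    rw [← ZMod.natCast_eq_zero_iff]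
    push_cast
    have hqd : ((q : ZMod r)) ^ d = 1 := by
      have := (dvd_pow_sub_one_iff q r hrq d).mp hd
      exact orderOf_dvd_iff_pow_eq_one.mp this
    rw [hqd]
    simp only [one_pow, Finset.sum_const, Finset.card_range, nsmul_eq_mul, mul_one]
    rw [ZMod.natCast_eq_zero_iff]
    intro h
    have := Nat.le_of_dvd ht0 h
    omega
  have hsum0 : ∑ i ∈ Finset.range t, (q ^ d) ^ i ≠ 0 := by
    intro h; rw [h] at hsum; exact hsum (dvd_zero r)
  rw [← hgeom, Nat.factorization_mul hsum0 hd0, Finsupp.add_apply,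
    Nat.factorization_eq_zero_of_not_dvd hsum, zero_add]

/-- `v_r(q^d - 1) = v_r(Φ_d(q))` for `d` the order of `q` modulo `r`. -/
theorem factorization_pow_order_sub_one (hrq : ¬ r ∣ q) :
    (q ^ orderOf (q : ZMod r) - 1).factorization r =
      padicValNat r ((Polynomial.cyclotomic (orderOf (q : ZMod r)) ℤ).eval (q : ℤ)).natAbs := by
  have hr : r.Prime := Fact.out
  have hq := q_pos_of_not_dvd q r hrq
  set d := orderOf (q : ZMod r) with hd
  have hdpos : 0 < d := orderOf_zmod_pos q r hrq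
  have h1 : 1 ≤ q ^ d := Nat.one_le_pow _ _ hq
  have hprod := Polynomial.prod_cyclotomic_eq_X_pow_sub_one hdpos ℤ
  have hprod2 := congrArg (fun f => (Polynomial.eval (q : ℤ) f).natAbs) hprod
  simp only [Polynomial.eval_prod, Polynomial.eval_sub, Polynomial.eval_pow, Polynomial.eval_X,
    Polynomial.eval_one] at hprod2
  have hnat : ((q : ℤ) ^ d - 1).natAbs = q ^ d - 1 := by
    have : ((q : ℤ) ^ d - 1) = ((q ^ d - 1 : ℕ) : ℤ) := by
      rw [Nat.cast_sub h1]; push_cast; rfl
    rw [this, Int.natAbs_natCast]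
  rw [hnat] at hprod2
  have hprod3 : ∏ i ∈ Nat.divisors d, ((Polynomial.cyclotomic i ℤ).eval (q : ℤ)).natAbs = q ^ d - 1 := by
    rw [← hprod2]
    exact (map_prod Int.natAbsHom _ _).symm
  rw [← Nat.insert_self_properDivisors hdpos.ne', Finset.prod_insert Nat.self_notMem_properDivisors]
    at hprod3
  -- proper divisors contribute nothing
  have hproper : ¬ r ∣ ∏ i ∈ Nat.properDivisors d, ((Polynomial.cyclotomic i ℤ).eval (q : ℤ)).natAbs := by
    intro h
    rw [Prime.dvd_finsetProd_iff (Nat.Prime.prime hr)] at h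
    obtain ⟨i, hi, hri⟩ := h
    rw [Nat.mem_properDivisors] at hi
    have hipos : 0 < i := Nat.pos_of_dvd_of_pos hi.1 hdpos
    have hdvd : (Polynomial.cyclotomic i ℤ).eval (q : ℤ) ∣ (q : ℤ) ^ i - 1 := by
      have := Polynomial.cyclotomic.dvd_X_pow_sub_one i ℤ
      have h2 := Polynomial.eval_dvd (x := (q : ℤ)) this
      simpa using h2
    have h3 : (r : ℤ) ∣ (q : ℤ) ^ i - 1 := dvd_trans (Int.natCast_dvd.mpr hri) hdvd
    have h4 : r ∣ q ^ i - 1 := by
      have h1i : 1 ≤ q ^ i := Nat.one_le_pow _ _ hq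
      have : ((q : ℤ) ^ i - 1) = ((q ^ i - 1 : ℕ) : ℤ) := by
        rw [Nat.cast_sub h1i]; push_cast; rfl
      rw [this] at h3
      exact Int.natCast_dvd_natCast.mp h3
    have h5 := (dvd_pow_sub_one_iff q r hrq i).mp h4
    have := Nat.le_of_dvd hipos h5
    omega
  have hproper0 : ∏ i ∈ Nat.properDivisors d, ((Polynomial.cyclotomic i ℤ).eval (q : ℤ)).natAbs ≠ 0 := by
    intro h; rw [h] at hproper; exact hproper (dvd_zero r)
  by_cases hd0 : ((Polynomial.cyclotomic d ℤ).eval (q : ℤ)).natAbs = 0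
  · rw [hd0, zero_mul] at hprod3
    rw [← hprod3, hd0]
    simp
  rw [← hprod3, Nat.factorization_mul hd0 hproper0, Finsupp.add_apply,
    Nat.factorization_eq_zero_of_not_dvd hproper, add_zero, Nat.factorization_def _ hr]

/-- `v_r(q^j - 1)` for `1 ≤ j < r`. -/
theorem factorization_pow_sub_one (hrq : ¬ r ∣ q) (j : ℕ) (hj0 : 0 < j) (hjr : j < r) :
    (q ^ j - 1).factorization r =
      if orderOf (q : ZMod r) ∣ j then
        padicValNat r ((Polynomial.cyclotomic (orderOf (q : ZMod r)) ℤ).eval (q : ℤ)).natAbs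
      else 0 := by
  split_ifs with h
  · obtain ⟨t, rfl⟩ := h
    have hdpos : 0 < orderOf (q : ZMod r) := orderOf_zmod_pos q r hrq
    have ht0 : 0 < t := by
      rcases Nat.eq_zero_or_pos t with h | h
      · subst h; simp at hj0
      · exact h
    have htr : t < r := by
      have : t ≤ orderOf (q : ZMod r) * t := Nat.le_mul_of_pos_left t hdpos
      omega
    rw [factorization_pow_mul_sub_one q r hrq _ t
      ((dvd_pow_sub_one_iff q r hrq _).mpr dvd_rfl) ht0 htr, factorization_pow_order_sub_one q r hrq]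
  · apply Nat.factorization_eq_zero_of_not_dvd
    rwa [dvd_pow_sub_one_iff q r hrq]

/-- The `r`-part of `|GL_n(q)| = ∏_{i<n} (q^n - q^i)` for `r > n`, `r ∤ q`. -/
theorem factorization_prod_GL (hq2 : 2 ≤ q) (n : ℕ) (hrn : n < r) (hrq : ¬ r ∣ q) :
    (∏ i : Fin n, (q ^ n - q ^ (i : ℕ))).factorization r =
      (n / orderOf (q : ZMod r)) *
        padicValNat r ((Polynomial.cyclotomic (orderOf (q : ZMod r)) ℤ).eval (q : ℤ)).natAbs := by
  have hr : r.Prime := Fact.out
  set d := orderOf (q : ZMod r) with hd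
  set s := padicValNat r ((Polynomial.cyclotomic d ℤ).eval (q : ℤ)).natAbs with hs
  have hterm : ∀ i : Fin n, q ^ n - q ^ (i : ℕ) = q ^ (i : ℕ) * (q ^ (n - (i : ℕ)) - 1) := by
    intro i
    rw [Nat.mul_sub, mul_one, ← pow_add]
    congr 2
    have := i.2
    omega
  have hpos2 : ∀ i : Fin n, q ^ (n - (i : ℕ)) - 1 ≠ 0 := by
    intro i
    have hi := i.2
    have : q ^ 1 ≤ q ^ (n - (i : ℕ)) := Nat.pow_le_pow_right (by omega) (by omega)
    rw [pow_one] at this
    omega
  have hpos1 : ∀ i : Fin n, q ^ (i : ℕ) ≠ 0 := fun i => pow_ne_zero _ (by omega)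
  have hne : ∀ i ∈ (Finset.univ : Finset (Fin n)), q ^ n - q ^ (i : ℕ) ≠ 0 := by
    intro i _
    rw [hterm]
    exact mul_ne_zero (hpos1 i) (hpos2 i)
  rw [Nat.factorization_prod hne, Finsupp.finsetSum_apply]
  have hval : ∀ i : Fin n, (q ^ n - q ^ (i : ℕ)).factorization r =
      if d ∣ n - (i : ℕ) then s else 0 := by
    intro i
    have hi := i.2
    rw [hterm, Nat.factorization_mul (hpos1 i) (hpos2 i), Finsupp.add_apply,
      Nat.factorization_eq_zero_of_not_dvd (fun h => hrq (hr.dvd_of_dvd_pow h)), zero_add,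
      factorization_pow_sub_one q r hrq _ (by omega) (by omega)]
  rw [Finset.sum_congr rfl (fun i _ => hval i)]
  rw [Fin.sum_univ_eq_sum_range (fun j => if d ∣ n - j then s else 0) n]
  have h1 : ∑ j ∈ Finset.range n, (if d ∣ n - j then s else 0) =
      ∑ j ∈ Finset.range n, (fun j => if d ∣ j + 1 then s else 0) (n - 1 - j) := by
    apply Finset.sum_congr rfl
    intro j hj
    rw [Finset.mem_range] at hj
    have : n - 1 - j + 1 = n - j := by omega
    simp only [this]
  rw [h1, Finset.sum_range_reflect (fun j => if d ∣ j + 1 then s else 0) n, Finset.sum_ite,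
    Finset.sum_const_zero, add_zero, Finset.sum_const, Nat.card_multiples, smul_eq_mul]

end GLOrder

end Cfsg.Agent.H45
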