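import Mathlib

set_option autoImplicit false

namespace Cfsg.Agent.H45

open Polynomial

section PolyCount

variable {F : Type*} [Field F]

/-- Monic polynomials of degree `n` correspond to their vectors of lower coefficients. -/
noncomputable def monicEquiv (n : ℕ) : {f : F[X] // f.Monic ∧ f.natDegree = n} ≃ (Fin n → F) where
  toFun f := fun i => f.1.coeff i
  invFun v := ⟨X ^ n + ∑ i : Fin n, C (v i) * X ^ (i : ℕ), monic_X_pow_add (degree_sum_fin_lt v), by
    rw [natDegree_add_eq_left_of_degree_lt, natDegree_X_pow]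
    rw [degree_X_pow]
    exact degree_sum_fin_lt v⟩
  left_inv := by
    rintro ⟨f, hf, hn⟩
    apply Subtype.ext
    simp only
    conv_rhs => rw [hf.as_sum, hn]
    rw [Fin.sum_univ_eq_sum_range (fun i => C (f.coeff i) * X ^ i) n]
  right_inv := by
    intro v
    funext i
    simp only [coeff_add, coeff_X_pow, finset_sum_coeff, coeff_C_mul_X_pow]
    rw [if_neg (by have := i.2; omega), zero_add]
    simp [Fin.val_inj]

theorem card_monic_coeff_zero [Fintype F] (n' : ℕ) (Q : F → Prop) :
    Nat.card {f : F[X] // f.Monic ∧ f.natDegree = n' + 1 ∧ Q (f.coeff 0)} =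
      Nat.card {x : F // Q x} * Fintype.card F ^ n' := by
  have e1 : {f : F[X] // f.Monic ∧ f.natDegree = n' + 1 ∧ Q (f.coeff 0)} ≃
      {f : F[X] // (f.Monic ∧ f.natDegree = n' + 1) ∧ Q (f.coeff 0)} :=
    Equiv.subtypeEquivRight (fun f => by rw [and_assoc])
  have e2 := (Equiv.subtypeSubtypeEquivSubtypeInter (fun f : F[X] => f.Monic ∧ f.natDegree = n' + 1)
    (fun f => Q (f.coeff 0))).symm
  have e3 : {g : {f : F[X] // f.Monic ∧ f.natDegree = n' + 1} // Q (g.1.coeff 0)} ≃
      {v : Fin (n' + 1) → F // Q (v 0)} :=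
    Equiv.subtypeEquiv (monicEquiv (n' + 1)) (fun a => Iff.rfl)
  have e4 : {v : Fin (n' + 1) → F // Q (v 0)} ≃ {x : F × (Fin n' → F) // Q x.1} :=
    Equiv.subtypeEquiv (Fin.consEquiv (fun _ : Fin (n' + 1) => F)).symm (fun a => Iff.rfl)
  have e5 : {x : F × (Fin n' → F) // Q x.1} ≃ {x : F // Q x} × (Fin n' → F) :=
    Equiv.prodSubtypeFstEquivSubtypeProd
  rw [Nat.card_congr (e1.trans (e2.trans (e3.trans (e4.trans e5)))), Nat.card_prod, Nat.card_fun,
    Nat.card_eq_fintype_card (α := F), Nat.card_eq_fintype_card (α := Fin n'), Fintype.card_fin]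

end PolyCount

end Cfsg.Agent.H45
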