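import Mathlib
import Cfsg.Agent.H45.IsoPoly
import Cfsg.Agent.H45.PolyCount

set_option autoImplicit false

namespace Cfsg.Agent.H45

open Polynomial Module

universe u

section IsoCount

variable {F : Type u} [Field F]

/-- The fixed points of a semilinear involution form a real structure: `|Fix|² = |W|`. -/
theorem card_fixed_semilinear {W : Type*} [AddCommGroup W] [Module F W] (σ : F →+* F)
    (hσ : ∀ a, σ (σ a) = a) (θ : F) (hθ : σ θ ≠ θ) (T : W → W)
    (hT_add : ∀ x y, T (x + y) = T x + T y) (hT_smul : ∀ (c : F) x, T (c • x) = σ c • T x)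
    (hTT : ∀ x, T (T x) = x) : Nat.card {w : W // T w = w} ^ 2 = Nat.card W := by
  have hT0 : T 0 = 0 := by
    have h := hT_add 0 0
    rw [add_zero] at h
    exact left_eq_add.mp h
  have hT_neg : ∀ x, T (-x) = -T x := by
    intro x
    have h := hT_add x (-x)
    rw [add_neg_cancel, hT0] at h
    exact (neg_eq_of_add_eq_zero_right h.symm).symm
  have hT_sub : ∀ x y, T (x - y) = T x - T y := by
    intro x y
    rw [sub_eq_add_neg, hT_add, hT_neg, ← sub_eq_add_neg]
  have hd : θ - σ θ ≠ 0 := sub_ne_zero.mpr (Ne.symm hθ)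
  let Φ : {w : W // T w = w} × {w : W // T w = w} → W := fun uv => (uv.1 : W) + θ • (uv.2 : W)
  have hΦ : Function.Bijective Φ := by
    constructor
    · rintro ⟨⟨u, hu⟩, ⟨v, hv⟩⟩ ⟨⟨u', hu'⟩, ⟨v', hv'⟩⟩ h
      simp only [Φ] at h
      have h2 := congrArg T h
      rw [hT_add, hT_add, hT_smul, hT_smul, hu, hv, hu', hv'] at h2
      have h3 : (θ - σ θ) • (v - v') = 0 := by
        linear_combination (norm := module) h - h2
      have h4 : v = v' := sub_eq_zero.mp ((smul_eq_zero.mp h3).resolve_left hd)
      subst h4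
      have h5 : u = u' := add_right_cancel h
      subst h5
      rfl
    · intro w
      have hv2 : (θ - σ θ) • ((θ - σ θ)⁻¹ • (w - T w)) = w - T w := by
        rw [smul_smul, mul_inv_cancel₀ hd, one_smul]
      have hv : T ((θ - σ θ)⁻¹ • (w - T w)) = (θ - σ θ)⁻¹ • (w - T w) := by
        rw [hT_smul, hT_sub, hTT, map_inv₀, map_sub, hσ]
        have e1 : (σ θ - θ)⁻¹ = -(θ - σ θ)⁻¹ := by
          rw [← neg_sub, inv_neg]
        rw [e1, neg_smul, ← smul_neg, neg_sub]
      have hu : T (w - θ • ((θ - σ θ)⁻¹ • (w - T w))) = w - θ • ((θ - σ θ)⁻¹ • (w - T w)) := by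
        rw [hT_sub, hT_smul, hv]
        linear_combination (norm := module) hv2
      refine ⟨(⟨_, hu⟩, ⟨_, hv⟩), ?_⟩
      simp only [Φ]
      abel
  rw [← Nat.card_congr (Equiv.ofBijective Φ hΦ), Nat.card_prod, sq]

/-- Coefficients of the monic polynomial with prescribed lower coefficients. -/
theorem monicEquiv_symm_coeff (N : ℕ) (c : ℕ → F) (k : ℕ) :
    ((monicEquiv N).symm (fun i : Fin N => c i)).1.coeff k =
      if k < N then c k else if k = N then 1 else 0 := by
  have hm := ((monicEquiv N).symm (fun i : Fin N => c i)).2.1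
  have hd := ((monicEquiv N).symm (fun i : Fin N => c i)).2.2
  by_cases h1 : k < N
  · rw [if_pos h1]
    have h2 := congrFun ((monicEquiv N).apply_symm_apply (fun i : Fin N => c i)) ⟨k, h1⟩
    exact h2
  · rw [if_neg h1]
    by_cases h2 : k = N
    · rw [if_pos h2, h2]
      have h3 := hm.coeff_natDegree
      rw [hd] at h3
      exact h3
    · rw [if_neg h2]
      exact coeff_eq_zero_of_natDegree_lt (by rw [hd]; omega)

/-- The number of monic palindromic polynomials of degree `2n`. -/
theorem card_sp_poly [Fintype F] (n : ℕ) :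
    Nat.card {f : F[X] // f.Monic ∧ f.natDegree = 2 * n ∧ f.reverse = f} =
      Fintype.card F ^ n := by
  classical
  have hS1 : ∀ f : F[X], f.natDegree = 2 * n → f.reverse = f →
      ∀ k, k ≤ 2 * n → f.coeff (2 * n - k) = f.coeff k := by
    intro f hd hrev k hk
    have h := congrArg (fun r => r.coeff k) hrev
    simp only [coeff_reverse, hd, revAt_le hk] at h
    exact h
  have hc0 : ∀ f : F[X], f.Monic → f.natDegree = 2 * n → f.reverse = f → f.coeff 0 = 1 := by
    intro f hm hd hrev
    have h := hS1 f hd hrev (2 * n) le_rfl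
    rw [Nat.sub_self] at h
    rw [h, ← hd]
    exact hm.coeff_natDegree
  let Ψ : {f : F[X] // f.Monic ∧ f.natDegree = 2 * n ∧ f.reverse = f} → (Fin n → F) :=
    fun f i => f.1.coeff (i + 1)
  have hΨ : Function.Bijective Ψ := by
    constructor
    · rintro ⟨f, hfm, hfd, hfr⟩ ⟨f', hfm', hfd', hfr'⟩ h
      apply Subtype.ext
      show f = f'
      have hA : ∀ k, 1 ≤ k → k ≤ n → f.coeff k = f'.coeff k := by
        intro k hk1 hkn
        have h1 := congrFun h ⟨k - 1, by omega⟩
        simp only [Ψ] at h1
        rw [Nat.sub_add_cancel hk1] at h1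
        exact h1
      ext k
      rcases Nat.eq_zero_or_pos k with rfl | hk0
      · rw [hc0 f hfm hfd hfr, hc0 f' hfm' hfd' hfr']
      by_cases hkn : k ≤ n
      · exact hA k hk0 hkn
      by_cases hk2 : k < 2 * n
      · have h1 := hS1 f hfd hfr (2 * n - k) (by omega)
        have h2 := hS1 f' hfd' hfr' (2 * n - k) (by omega)
        rw [Nat.sub_sub_self hk2.le] at h1 h2
        rw [h1, h2]
        exact hA _ (by omega) (by omega)
      by_cases hk3 : k = 2 * n
      · have e1 := hfm.coeff_natDegree
        have e2 := hfm'.coeff_natDegree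
        rw [hfd] at e1
        rw [hfd'] at e2
        rw [hk3, e1, e2]
      · rw [coeff_eq_zero_of_natDegree_lt (by rw [hfd]; omega),
          coeff_eq_zero_of_natDegree_lt (by rw [hfd']; omega)]
    · intro v
      let v' : ℕ → F := fun j => if h : j < n then v ⟨j, h⟩ else 0
      let c : ℕ → F := fun k => if k = 0 then 1 else if k ≤ n then v' (k - 1) else v' (2 * n - k - 1)
      let c' : ℕ → F := fun k => if k < 2 * n then c k else if k = 2 * n then 1 else 0
      have hcoef : ∀ k, ((monicEquiv (2 * n)).symm (fun i : Fin (2 * n) => c i)).1.coeff k = c' k :=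
        fun k => monicEquiv_symm_coeff (2 * n) c k
      have hm := ((monicEquiv (2 * n)).symm (fun i : Fin (2 * n) => c i)).2.1
      have hd := ((monicEquiv (2 * n)).symm (fun i : Fin (2 * n) => c i)).2.2
      have hsym : ∀ k, k ≤ 2 * n → c' (2 * n - k) = c' k := by
        intro k hk
        simp only [c', c]
        split_ifs <;> first | rfl | omega | (congr 1; omega)
      have hrev : ((monicEquiv (2 * n)).symm (fun i : Fin (2 * n) => c i)).1.reverse =
          ((monicEquiv (2 * n)).symm (fun i : Fin (2 * n) => c i)).1 := by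
        ext k
        rw [coeff_reverse, hd]
        by_cases hk : k ≤ 2 * n
        · rw [revAt_le hk, hcoef, hcoef]
          exact hsym k hk
        · rw [revAt_eq_self_of_lt (by omega)]
      refine ⟨⟨_, hm, hd, hrev⟩, ?_⟩
      funext i
      show ((monicEquiv (2 * n)).symm (fun i : Fin (2 * n) => c i)).1.coeff (i + 1) = v i
      rw [hcoef]
      have hi := i.2
      simp only [c', c, v']
      rw [if_pos (by omega), if_neg (by omega), if_pos (by omega), dif_pos (by omega)]
      rfl
  rw [Nat.card_congr (Equiv.ofBijective Ψ hΨ), Nat.card_fun, Nat.card_eq_fintype_card (α := F),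
    Nat.card_eq_fintype_card (α := Fin n), Fintype.card_fin]

/-- The number of monic self-dual polynomials of degree `n` with constant term `(-1)^n`. -/
theorem card_su_poly [Fintype F] {q : ℕ} (hF : Fintype.card F = q ^ 2) (σ : F →+* F)
    (hσ : ∀ a, σ (σ a) = a) (hσne : σ ≠ RingHom.id F) (n : ℕ) (hn : 1 ≤ n) :
    Nat.card {f : F[X] // f.Monic ∧ f.natDegree = n ∧ f.coeff 0 = (-1) ^ n ∧
      dualPoly σ f = C (σ (f.coeff 0)) * f} = q ^ (n - 1) := by
  classical
  obtain ⟨N, rfl⟩ : ∃ N, n = N + 1 := ⟨n - 1, by omega⟩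
  rw [Nat.add_sub_cancel]
  obtain ⟨θ, hθ⟩ : ∃ θ, σ θ ≠ θ := by
    by_contra hall
    push Not at hall
    exact hσne (RingHom.ext hall)
  have hss : ((-1 : F) ^ (N + 1)) * ((-1 : F) ^ (N + 1)) = 1 := by
    rw [← mul_pow]
    simp
  have hσs : σ ((-1 : F) ^ (N + 1)) = (-1 : F) ^ (N + 1) := by
    rw [map_pow, map_neg, map_one]
  let T : (Fin N → F) → (Fin N → F) := fun b j => (-1 : F) ^ (N + 1) * σ (b (Fin.rev j))
  have hcard := card_fixed_semilinear σ hσ θ hθ T
    (by
      intro x y
      funext j
      simp only [T, Pi.add_apply, map_add]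
      ring)
    (by
      intro c x
      funext j
      simp only [T, Pi.smul_apply, smul_eq_mul, map_mul]
      ring)
    (by
      intro x
      funext j
      simp only [T, map_mul, hσs, hσ, Fin.rev_rev]
      rw [← mul_assoc, hss, one_mul])
  have hW : Nat.card (Fin N → F) = (q ^ N) ^ 2 := by
    rw [Nat.card_fun, Nat.card_eq_fintype_card (α := F), Nat.card_eq_fintype_card (α := Fin N),
      Fintype.card_fin, hF, ← pow_mul, ← pow_mul, mul_comm]
  have hfix : Nat.card {b : Fin N → F // T b = b} = q ^ N := by
    rw [hW] at hcard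
    exact Nat.pow_left_injective (by norm_num : (2 : ℕ) ≠ 0) hcard
  have hcoefdual : ∀ f : F[X], f.natDegree = N + 1 → f.coeff 0 = (-1) ^ (N + 1) →
      dualPoly σ f = C (σ (f.coeff 0)) * f → ∀ k, k ≤ N + 1 →
      σ (f.coeff (N + 1 - k)) = (-1) ^ (N + 1) * f.coeff k := by
    intro f hd h0 hdual k hk
    have h := congrArg (fun r => r.coeff k) hdual
    simp only [dualPoly_coeff, hd, revAt_le hk, coeff_C_mul, h0, hσs] at h
    exact h
  let Ψ : {f : F[X] // f.Monic ∧ f.natDegree = N + 1 ∧ f.coeff 0 = (-1) ^ (N + 1) ∧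
      dualPoly σ f = C (σ (f.coeff 0)) * f} → {b : Fin N → F // T b = b} :=
    fun f => ⟨fun j => f.1.coeff (j + 1), by
      obtain ⟨f, hfm, hfd, hf0, hfdual⟩ := f
      funext j
      have hj := j.2
      have h1 := hcoefdual f hfd hf0 hfdual (j + 1) (by omega)
      simp only [T]
      have h2 : ((Fin.rev j : Fin N) : ℕ) + 1 = N + 1 - (j + 1) := by
        rw [Fin.val_rev]
        omega
      rw [h2, h1, ← mul_assoc, hss, one_mul]⟩
  have hΨ : Function.Bijective Ψ := by
    constructor
    · rintro ⟨f, hfm, hfd, hf0, hfdual⟩ ⟨f', hfm', hfd', hf0', hfdual'⟩ h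
      apply Subtype.ext
      show f = f'
      have hA : ∀ k, 1 ≤ k → k ≤ N → f.coeff k = f'.coeff k := by
        intro k hk1 hkn
        have h1 := congrFun (congrArg Subtype.val h) ⟨k - 1, by omega⟩
        simp only [Ψ] at h1
        rw [Nat.sub_add_cancel hk1] at h1
        exact h1
      ext k
      rcases Nat.eq_zero_or_pos k with rfl | hk0
      · rw [hf0, hf0']
      by_cases hkn : k ≤ N
      · exact hA k hk0 hkn
      by_cases hk3 : k = N + 1
      · have e1 := hfm.coeff_natDegree
        have e2 := hfm'.coeff_natDegree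
        rw [hfd] at e1
        rw [hfd'] at e2
        rw [hk3, e1, e2]
      · rw [coeff_eq_zero_of_natDegree_lt (by rw [hfd]; omega),
          coeff_eq_zero_of_natDegree_lt (by rw [hfd']; omega)]
    · rintro ⟨b, hb⟩
      let b' : ℕ → F := fun j => if h : j < N then b ⟨j, h⟩ else 0
      let c : ℕ → F := fun k => if k = 0 then (-1) ^ (N + 1) else b' (k - 1)
      let c' : ℕ → F := fun k => if k < N + 1 then c k else if k = N + 1 then 1 else 0
      have hcoef : ∀ k, ((monicEquiv (N + 1)).symm (fun i : Fin (N + 1) => c i)).1.coeff k = c' k :=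
        fun k => monicEquiv_symm_coeff (N + 1) c k
      have hm := ((monicEquiv (N + 1)).symm (fun i : Fin (N + 1) => c i)).2.1
      have hd := ((monicEquiv (N + 1)).symm (fun i : Fin (N + 1) => c i)).2.2
      have h0 : ((monicEquiv (N + 1)).symm (fun i : Fin (N + 1) => c i)).1.coeff 0 =
          (-1) ^ (N + 1) := by
        rw [hcoef]
        simp only [c', c]
        rw [if_pos (by omega), if_true]
      have hbfix : ∀ k, 1 ≤ k → k ≤ N → σ (b' (N + 1 - k - 1)) = (-1) ^ (N + 1) * b' (k - 1) := by
        intro k hk1 hkN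
        have h1 := congrFun hb ⟨k - 1, by omega⟩
        simp only [T] at h1
        simp only [b']
        rw [dif_pos (by omega), dif_pos (by omega), ← h1, ← mul_assoc, hss, one_mul]
        congr 2
        apply Fin.ext
        rw [Fin.val_rev]
        simp only
        omega
      have hdual : dualPoly σ ((monicEquiv (N + 1)).symm (fun i : Fin (N + 1) => c i)).1 =
          C (σ (((monicEquiv (N + 1)).symm (fun i : Fin (N + 1) => c i)).1.coeff 0)) *
            ((monicEquiv (N + 1)).symm (fun i : Fin (N + 1) => c i)).1 := by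
        ext k
        rw [dualPoly_coeff, hd, coeff_C_mul, h0, hσs]
        by_cases hk : k ≤ N + 1
        · rw [revAt_le hk, hcoef, hcoef]
          rcases Nat.eq_zero_or_pos k with rfl | hk0
          · simp only [c', c]
            rw [Nat.sub_zero, if_neg (by omega), if_pos rfl, if_pos (by omega), if_true, map_one,
              hss]
          by_cases hk3 : k = N + 1
          · subst hk3
            simp only [c', c]
            rw [Nat.sub_self, if_pos (by omega), if_pos rfl, if_neg (by omega), if_true, hσs,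
              mul_one]
          · simp only [c', c]
            rw [if_pos (by omega), if_neg (by omega), if_pos (by omega), if_neg (by omega)]
            exact hbfix k hk0 (by omega)
        · rw [revAt_eq_self_of_lt (by omega), hcoef]
          simp only [c']
          rw [if_neg (by omega), if_neg (by omega), map_zero, mul_zero]
      refine ⟨⟨_, hm, hd, h0, hdual⟩, ?_⟩
      apply Subtype.ext
      funext j
      show ((monicEquiv (N + 1)).symm (fun i : Fin (N + 1) => c i)).1.coeff (j + 1) = b j
      rw [hcoef]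
      have hj := j.2
      simp only [c', c, b']
      rw [if_pos (by omega), if_neg (by omega), dif_pos (by omega)]
      rfl
  rw [Nat.card_congr (Equiv.ofBijective Ψ hΨ), hfix]

end IsoCount

end Cfsg.Agent.H45
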