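import Mathlib
import Cfsg.Agent.H45.MDefs

set_option autoImplicit false
set_option linter.unusedSectionVars false
set_option linter.unusedVariables false

/-!
# The seed element (helper45, piece M-SEED of the S2415 team project)

`IsP h A A' ρ γ` records the action of a parabolic element modulo the centre of the unipotent
radical; it multiplies by the cocycle rule `γ_{hh'} = γ_h A'_{h'} + ρ_h γ_{h'}`.
-/

namespace Cfsg.Agent.H45.M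

open Matrix Cfsg.Agent.H49

variable {F : Type*} [Field F] {k : ℕ}

theorem act_add' {a b : F} (g : OM k F a b) (v w : (Fin k ⊕ Fin k) ⊕ Fin 2 → F) :
    act g (v + w) = act g v + act g w := Matrix.mulVec_add _ _ _

theorem act_sub' {a b : F} (g : OM k F a b) (v w : (Fin k ⊕ Fin k) ⊕ Fin 2 → F) :
    act g (v - w) = act g v - act g w := Matrix.mulVec_sub _ _ _

theorem act_neg' {a b : F} (g : OM k F a b) (v : (Fin k ⊕ Fin k) ⊕ Fin 2 → F) :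
    act g (-v) = - act g v := Matrix.mulVec_neg _ _

theorem act_inv_eq {a b : F} (g : OM k F a b) {v w : (Fin k ⊕ Fin k) ⊕ Fin 2 → F}
    (h : act g w = v) : act g⁻¹ v = w := by
  rw [← h, act_inv_act]

theorem tri_decomp (x y : Fin k → F) (z : Fin 2 → F) :
    tri x y z = tri x 0 0 + tri 0 y 0 + tri 0 0 z := by
  rw [tri_add, tri_add]
  simp

theorem vec_eq_of_dot (u v : Fin k → F) (h : ∀ y : Fin k → F, u ⬝ᵥ y = v ⬝ᵥ y) : u = v := by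
  funext i
  have := h (Pi.single i 1)
  simpa using this

theorem dot_mulVec_mulVec (A A' : Matrix (Fin k) (Fin k) F) (x y : Fin k → F) :
    (A *ᵥ x) ⬝ᵥ (A' *ᵥ y) = x ⬝ᵥ ((Aᵀ * A') *ᵥ y) := by
  rw [← Matrix.mulVec_mulVec, dotProduct_comm, Matrix.dotProduct_mulVec, ← Matrix.mulVec_transpose,
    dotProduct_comm]

theorem mat_eq_one_of_dot (M : Matrix (Fin k) (Fin k) F)
    (h : ∀ x y : Fin k → F, x ⬝ᵥ (M *ᵥ y) = x ⬝ᵥ y) : M = 1 := by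
  have h1 : ∀ y : Fin k → F, M *ᵥ y = y := fun y =>
    vec_eq_of_dot _ _ (fun x => by rw [dotProduct_comm, h, dotProduct_comm])
  ext i j
  have := congrFun (h1 (Pi.single j 1)) i
  rw [Matrix.mulVec_single_one] at this
  rw [Matrix.col_apply] at this
  rw [this, Matrix.one_apply, Pi.single_apply]

/-- Action of a parabolic element modulo the centre of the unipotent radical. -/
def IsP {a b : F} (h : OM k F a b) (A A' : Matrix (Fin k) (Fin k) F)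
    (ρ : Matrix (Fin 2) (Fin 2) F) (γ : Matrix (Fin 2) (Fin k) F) : Prop :=
  (∀ x : Fin k → F, act h (tri x 0 0) = tri (A *ᵥ x) 0 0) ∧
  (∀ y : Fin k → F, ∃ x' : Fin k → F, act h (tri 0 y 0) = tri x' (A' *ᵥ y) (γ *ᵥ y)) ∧
  (∀ z : Fin 2 → F, ∃ x' : Fin k → F, act h (tri 0 0 z) = tri x' 0 (ρ *ᵥ z))

theorem isP_congr {a b : F} {h : OM k F a b} {A A' B B' : Matrix (Fin k) (Fin k) F}
    {ρ σ : Matrix (Fin 2) (Fin 2) F} {γ δ : Matrix (Fin 2) (Fin k) F}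
    (hh : IsP h A A' ρ γ) (e1 : A = B) (e2 : A' = B') (e3 : ρ = σ) (e4 : γ = δ) :
    IsP h B B' σ δ := by
  subst e1 e2 e3 e4
  exact hh

theorem isP_of_isLevi {a b : F} {g : OM k F a b} {A A' : Matrix (Fin k) (Fin k) F}
    {ρ : Matrix (Fin 2) (Fin 2) F} (hg : IsLevi g A A' ρ) : IsP g A A' ρ 0 := by
  refine ⟨fun x => ?_, fun y => ⟨0, ?_⟩, fun z => ⟨0, ?_⟩⟩
  · rw [hg]; simp
  · rw [hg]; simp
  · rw [hg]; simp

theorem isP_of_isU {a b : F} {g : OM k F a b} {γ : Matrix (Fin 2) (Fin k) F}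
    {S : Matrix (Fin k) (Fin k) F} (hg : IsU g γ S) : IsP g 1 1 1 γ := by
  refine ⟨fun x => ?_, fun y => ⟨S *ᵥ y, ?_⟩, fun z => ⟨- ((γᵀ * gam a b) *ᵥ z), ?_⟩⟩
  · rw [hg]; simp
  · rw [hg]; simp
  · rw [hg]; simp [sub_eq_add_neg]

theorem isP_mul {a b : F} {h h' : OM k F a b} {A A' B B' : Matrix (Fin k) (Fin k) F}
    {ρ σ : Matrix (Fin 2) (Fin 2) F} {γ δ : Matrix (Fin 2) (Fin k) F}
    (hh : IsP h A A' ρ γ) (hh' : IsP h' B B' σ δ) :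
    IsP (h * h') (A * B) (A' * B') (ρ * σ) (γ * B' + ρ * δ) := by
  obtain ⟨h1, h2, h3⟩ := hh
  obtain ⟨h1', h2', h3'⟩ := hh'
  refine ⟨fun x => ?_, fun y => ?_, fun z => ?_⟩
  · rw [act_mul, h1', h1, Matrix.mulVec_mulVec]
  · obtain ⟨x₁, e₁⟩ := h2' y
    obtain ⟨x₂, e₂⟩ := h2 (B' *ᵥ y)
    obtain ⟨x₃, e₃⟩ := h3 (δ *ᵥ y)
    refine ⟨A *ᵥ x₁ + x₂ + x₃, ?_⟩
    rw [act_mul, e₁, tri_decomp, act_add', act_add', h1, e₂, e₃, tri_add, tri_add,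
      Matrix.add_mulVec, ← Matrix.mulVec_mulVec, ← Matrix.mulVec_mulVec, ← Matrix.mulVec_mulVec]
    simp
  · obtain ⟨x₁, e₁⟩ := h3' z
    obtain ⟨x₃, e₃⟩ := h3 (σ *ᵥ z)
    refine ⟨A *ᵥ x₁ + x₃, ?_⟩
    have e : tri x₁ 0 (σ *ᵥ z) = tri x₁ 0 0 + tri 0 0 (σ *ᵥ z) := by rw [tri_add]; simp
    rw [act_mul, e₁, e, act_add', h1, e₃, tri_add, ← Matrix.mulVec_mulVec]
    simp

theorem isP_inv {a b : F} {h : OM k F a b} {A A' B B' : Matrix (Fin k) (Fin k) F}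
    {ρ σ : Matrix (Fin 2) (Fin 2) F} {γ : Matrix (Fin 2) (Fin k) F}
    (hh : IsP h A A' ρ γ) (hAB : A * B = 1) (hAB' : A' * B' = 1) (hρσ : ρ * σ = 1) :
    IsP h⁻¹ B B' σ (-(σ * γ * B')) := by
  obtain ⟨h1, h2, h3⟩ := hh
  have k1 : ∀ x : Fin k → F, act h⁻¹ (tri x 0 0) = tri (B *ᵥ x) 0 0 := by
    intro x
    apply act_inv_eq
    rw [h1, Matrix.mulVec_mulVec, hAB, Matrix.one_mulVec]
  have k3 : ∀ z : Fin 2 → F, ∃ x' : Fin k → F, act h⁻¹ (tri 0 0 z) = tri x' 0 (σ *ᵥ z) := by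
    intro z
    obtain ⟨x₁, e₁⟩ := h3 (σ *ᵥ z)
    rw [Matrix.mulVec_mulVec, hρσ, Matrix.one_mulVec] at e₁
    refine ⟨-(B *ᵥ x₁), ?_⟩
    have e : tri (0 : Fin k → F) 0 z = tri x₁ 0 z - tri x₁ 0 0 := by
      rw [tri_sub]; simp
    rw [e, act_sub', act_inv_eq h e₁, k1, tri_sub]
    simp
  refine ⟨k1, fun y => ?_, k3⟩
  obtain ⟨x₁, e₁⟩ := h2 (B' *ᵥ y)
  rw [Matrix.mulVec_mulVec, hAB', Matrix.one_mulVec, Matrix.mulVec_mulVec] at e₁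
  obtain ⟨x₃, e₃⟩ := k3 ((γ * B') *ᵥ y)
  refine ⟨-(B *ᵥ x₁) - x₃, ?_⟩
  have e : tri (0 : Fin k → F) y 0 = tri x₁ y ((γ * B') *ᵥ y) - tri x₁ 0 0
      - tri 0 0 ((γ * B') *ᵥ y) := by
    rw [tri_sub, tri_sub]; simp
  rw [e, act_sub', act_sub', act_inv_eq h e₁, k1, e₃, tri_sub, tri_sub, Matrix.neg_mulVec,
    ← Matrix.mulVec_mulVec, ← Matrix.mulVec_mulVec, ← Matrix.mulVec_mulVec]
  simp [sub_eq_add_neg]

/-- An isometry acting unipotently modulo the centre is an upper unipotent element. -/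
theorem isU_of_isP {a b : F} {g : OM k F a b} {γ : Matrix (Fin 2) (Fin k) F}
    (hg : IsP g 1 1 1 γ) : ∃ S : Matrix (Fin k) (Fin k) F, IsU g γ S := by
  obtain ⟨h1, h2, h3⟩ := hg
  choose f hf using h2
  choose c hc using h3
  -- `f` is given by a matrix
  have hfadd : ∀ y y' : Fin k → F, f (y + y') = f y + f y' := by
    intro y y'
    have e : tri (0 : Fin k → F) (y + y') 0 = tri 0 y 0 + tri 0 y' 0 := by rw [tri_add]; simp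
    have := hf (y + y')
    rw [e, act_add', hf, hf, tri_add] at this
    exact (tri_inj this).1.symm
  have hfsmul : ∀ (t : F) (y : Fin k → F), f (t • y) = t • f y := by
    intro t y
    have e : tri (0 : Fin k → F) (t • y) 0 = t • tri 0 y 0 := by rw [tri_smul]; simp
    have := hf (t • y)
    rw [e] at this
    have e2 : act g (t • tri 0 y 0) = t • act g (tri 0 y 0) := Matrix.mulVec_smul _ _ _
    rw [e2, hf, tri_smul] at this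
    exact (tri_inj this).1.symm
  let L : (Fin k → F) →ₗ[F] (Fin k → F) :=
    { toFun := f
      map_add' := hfadd
      map_smul' := hfsmul }
  have hS : ∀ y : Fin k → F, LinearMap.toMatrix' L *ᵥ y = f y := fun y => by
    rw [LinearMap.toMatrix'_mulVec]
    rfl
  have hcz : ∀ z : Fin 2 → F, c z = - ((γᵀ * gam a b) *ᵥ z) := by
    intro z
    apply vec_eq_of_dot
    intro y
    have hp := polar_act (QMin k F a b) g (tri 0 0 z) (tri 0 y 0)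
    rw [hc, hf, polar_tri, polar_tri] at hp
    simp only [zero_dotProduct, dotProduct_zero, add_zero, Matrix.one_mulVec,
      Matrix.mulVec_zero] at hp
    rw [neg_dotProduct, ← Matrix.mulVec_mulVec, Matrix.mulVec_transpose,
      ← Matrix.dotProduct_mulVec, dotProduct_comm (gam a b *ᵥ z)]
    have hsym : (γ *ᵥ y) ⬝ᵥ (gam a b *ᵥ z) = z ⬝ᵥ (gam a b *ᵥ (γ *ᵥ y)) := by
      rw [← polar_binQ_gam, ← polar_binQ_gam, QuadraticMap.polar_comm]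
    rw [hsym]
    linear_combination hp
  refine ⟨LinearMap.toMatrix' L, fun x y z => ?_⟩
  rw [tri_decomp x y z, act_add', act_add', h1, hf, hc, hcz, hS, tri_add, tri_add]
  simp only [Matrix.one_mulVec, add_zero, zero_add]
  rw [add_comm (γ *ᵥ y) z, sub_eq_add_neg]

theorem levi_transpose_mul {a b : F} {g : OM k F a b} {A A' : Matrix (Fin k) (Fin k) F}
    {ρ : Matrix (Fin 2) (Fin 2) F} (hg : IsLevi g A A' ρ) : Aᵀ * A' = 1 := by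
  apply mat_eq_one_of_dot
  intro x y
  have h := Q_act (QMin k F a b) g (tri x y 0)
  rw [hg, QMin_tri, QMin_tri, Matrix.mulVec_zero] at h
  rw [← dot_mulVec_mulVec]
  exact add_right_cancel h

theorem levi_exists_inv {a b : F} {g : OM k F a b} {A A' : Matrix (Fin k) (Fin k) F}
    {ρ : Matrix (Fin 2) (Fin 2) F} (hg : IsLevi g A A' ρ) :
    ∃ ρ' : Matrix (Fin 2) (Fin 2) F, ρ * ρ' = 1 := by
  have hinj : Function.Injective ρ.mulVec := by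
    intro z z' hzz
    have h1 : act g (tri 0 0 z) = act g (tri 0 0 z') := by
      rw [hg, hg]
      show tri _ _ (ρ.mulVec z) = tri _ _ (ρ.mulVec z')
      rw [hzz]
    have h2 : tri (0 : Fin k → F) 0 z = tri 0 0 z' := by
      rw [← act_inv_act g (tri 0 0 z), h1, act_inv_act]
    exact (tri_inj h2).2.2
  have hu : IsUnit ρ := Matrix.mulVec_injective_iff_isUnit.mp hinj
  obtain ⟨ρ', hρ'⟩ := hu.exists_right_inv
  exact ⟨ρ', hρ'⟩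

/-- the inverse of a Levi element, as a parabolic element. -/
theorem isP_levi_inv {a b : F} {g : OM k F a b} {A A' : Matrix (Fin k) (Fin k) F}
    {ρ ρ' : Matrix (Fin 2) (Fin 2) F} (hg : IsLevi g A A' ρ) (hρ : ρ * ρ' = 1) :
    IsP g⁻¹ A'ᵀ Aᵀ ρ' 0 := by
  have h1 : Aᵀ * A' = 1 := levi_transpose_mul hg
  have h2 : A' * Aᵀ = 1 := mul_eq_one_comm.mp h1
  have h3 : A * A'ᵀ = 1 := by
    have := congrArg Matrix.transpose h2
    rwa [Matrix.transpose_mul, Matrix.transpose_transpose, Matrix.transpose_one] at this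
  have h := isP_inv (isP_of_isLevi hg) h3 h2 hρ
  simpa using h

theorem transpose_inv_of {A A' : Matrix (Fin k) (Fin k) F} (h : Aᵀ * A' = 1) :
    A' * Aᵀ = 1 ∧ A * A'ᵀ = 1 := by
  have h2 : A' * Aᵀ = 1 := mul_eq_one_comm.mp h
  refine ⟨h2, ?_⟩
  have := congrArg Matrix.transpose h2
  rwa [Matrix.transpose_mul, Matrix.transpose_transpose, Matrix.transpose_one] at this

/-- the cocycle identity behind the seed. -/
theorem seed_identity (A A₁ A₁' : Matrix (Fin k) (Fin k) F) (ρ ρ₁ ρ' ρ₁' : Matrix (Fin 2) (Fin 2) F)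
    (γ₀ : Matrix (Fin 2) (Fin k) F) (hAT : Aᵀ * A₁ᵀ = A₁ᵀ * Aᵀ) (b2 : A₁' * A₁ᵀ = 1)
    (eρ : ρ * ρ₁ * ρ' * ρ₁' = 1) :
    (((0 : Matrix (Fin 2) (Fin k) F) * A₁' + ρ * (γ₀ * A₁' - ρ₁ * γ₀)) * Aᵀ
          + (ρ * ρ₁) * (0 : Matrix (Fin 2) (Fin k) F)) * A₁ᵀ
        + (ρ * ρ₁ * ρ') * (-(ρ₁' * (γ₀ * A₁' - ρ₁ * γ₀) * A₁ᵀ))
      = ρ * γ₀ * Aᵀ - ρ * ρ₁ * γ₀ * A₁ᵀ * Aᵀ + ρ₁ * γ₀ * A₁ᵀ - γ₀ := by
  have e1 : (ρ * ρ₁ * ρ') * (-(ρ₁' * (γ₀ * A₁' - ρ₁ * γ₀) * A₁ᵀ))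
      = -((γ₀ * A₁' - ρ₁ * γ₀) * A₁ᵀ) := by
    rw [Matrix.mul_neg, Matrix.mul_assoc ρ₁', ← Matrix.mul_assoc (ρ * ρ₁ * ρ') ρ₁', eρ,
      Matrix.one_mul]
  have e2 : (γ₀ * A₁' - ρ₁ * γ₀) * A₁ᵀ = γ₀ - ρ₁ * γ₀ * A₁ᵀ := by
    rw [Matrix.sub_mul, Matrix.mul_assoc γ₀, b2, Matrix.mul_one]
  have e3 : ρ * (γ₀ * A₁' - ρ₁ * γ₀) * Aᵀ * A₁ᵀ = ρ * γ₀ * Aᵀ - ρ * ρ₁ * γ₀ * A₁ᵀ * Aᵀ := by
    rw [Matrix.mul_assoc (ρ * (γ₀ * A₁' - ρ₁ * γ₀)), hAT, ← Matrix.mul_assoc, Matrix.mul_assoc ρ,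
      e2, Matrix.mul_sub, Matrix.sub_mul, ← Matrix.mul_assoc ρ, ← Matrix.mul_assoc ρ]
  rw [e1, e2, Matrix.zero_mul, zero_add, Matrix.mul_zero, add_zero, e3]
  abel

/-- piece M-SEED of S2415. -/
theorem seed {a b : F} (g g₁ u : OM k F a b) (A A' A₁ A₁' : Matrix (Fin k) (Fin k) F)
    (ρ ρ₁ : Matrix (Fin 2) (Fin 2) F) (hg : IsLevi g A A' ρ) (hg₁ : IsLevi g₁ A₁ A₁' ρ₁)
    (hA : A * A₁ = A₁ * A) (hρ : ρ * ρ₁ = ρ₁ * ρ)
    (γ₀ : Matrix (Fin 2) (Fin k) F) (S₀ : Matrix (Fin k) (Fin k) F) (hu : IsU u γ₀ S₀) :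
    ∃ S₁ : Matrix (Fin k) (Fin k) F,
      IsU (g * (u * g₁ * u⁻¹) * g⁻¹ * (u * g₁ * u⁻¹)⁻¹)
        (ρ * γ₀ * Aᵀ - ρ * ρ₁ * γ₀ * A₁ᵀ * Aᵀ + ρ₁ * γ₀ * A₁ᵀ - γ₀) S₁ := by
  have a1 : Aᵀ * A' = 1 := levi_transpose_mul hg
  obtain ⟨a2, a3⟩ := transpose_inv_of a1
  have b1 : A₁ᵀ * A₁' = 1 := levi_transpose_mul hg₁
  obtain ⟨b2, b3⟩ := transpose_inv_of b1
  obtain ⟨ρ', hρ'⟩ := levi_exists_inv hg
  obtain ⟨ρ₁', hρ₁'⟩ := levi_exists_inv hg₁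
  have hAT : Aᵀ * A₁ᵀ = A₁ᵀ * Aᵀ := by
    rw [← Matrix.transpose_mul, ← Matrix.transpose_mul, hA]
  have pu : IsP u 1 1 1 γ₀ := isP_of_isU hu
  have pu' := isP_inv pu (mul_one 1) (mul_one 1) (mul_one 1)
  have ph : IsP (u * g₁ * u⁻¹) A₁ A₁' ρ₁ (γ₀ * A₁' - ρ₁ * γ₀) := by
    have h := isP_mul (isP_mul pu (isP_of_isLevi hg₁)) pu'
    simpa [sub_eq_add_neg] using h
  have ph' : IsP (u * g₁ * u⁻¹)⁻¹ A₁'ᵀ A₁ᵀ ρ₁' (-(ρ₁' * (γ₀ * A₁' - ρ₁ * γ₀) * A₁ᵀ)) :=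
    isP_inv ph b3 b2 hρ₁'
  have pg : IsP g A A' ρ 0 := isP_of_isLevi hg
  have pg' : IsP g⁻¹ A'ᵀ Aᵀ ρ' 0 := isP_levi_inv hg hρ'
  have ps := isP_mul (isP_mul (isP_mul pg ph) pg') ph'
  have eA : A * A₁ * A'ᵀ * A₁'ᵀ = 1 := by
    rw [hA, Matrix.mul_assoc A₁ A, a3, Matrix.mul_one, b3]
  have eA' : A' * A₁' * Aᵀ * A₁ᵀ = 1 := by
    rw [Matrix.mul_assoc (A' * A₁'), hAT, ← Matrix.mul_assoc, Matrix.mul_assoc A', b2,
      Matrix.mul_one, a2]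
  have eρ : ρ * ρ₁ * ρ' * ρ₁' = 1 := by
    rw [hρ, Matrix.mul_assoc ρ₁ ρ, hρ', Matrix.mul_one, hρ₁']
  exact isU_of_isP (isP_congr ps eA eA' eρ (seed_identity A A₁ A₁' ρ ρ₁ ρ' ρ₁' γ₀ hAT b2 eρ))

end Cfsg.Agent.H45.M
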