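import Mathlib
import Cfsg.Agent.H45.MDefs
import Cfsg.Agent.H49.SimMinus
import Cfsg.Agent.H49.OmegaGen
import Cfsg.Agent.H49.SimpleForms
import Cfsg.Agent.H49.TSTrans
import Cfsg.Agent.H45.MSeed

set_option autoImplicit false
set_option linter.unusedSectionVars false
set_option linter.unusedVariables false

/-!
# Membership in `Ω` of the Levi and Weyl generators (helper45, piece M-MEM of S2415)
-/

namespace Cfsg.Agent.H45.M

open Matrix Cfsg.Agent.H49

variable {F : Type*} [Field F] {k : ℕ}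

theorem lev_mul (a b : F) (A A₂ : Matrix.GeneralLinearGroup (Fin k) F)
    (r r₂ : ↥(Cfsg.isometryGroup F (⇑(binQ a b)))) :
    lev a b A r * lev a b A₂ r₂ = lev a b (A * A₂) (r * r₂) := by
  have h := map_mul (blockIsoQ (QP k F) (binQ a b)) (leviO k F A, r) (leviO k F A₂, r₂)
  rw [Prod.mk_mul_mk, ← map_mul] at h
  exact h.symm

theorem lev_pow (a b : F) (A : Matrix.GeneralLinearGroup (Fin k) F)
    (r : ↥(Cfsg.isometryGroup F (⇑(binQ a b)))) (n : ℕ) :
    lev a b A r ^ n = lev a b (A ^ n) (r ^ n) := by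
  have h := map_pow (blockIsoQ (QP k F) (binQ a b)) (leviO k F A, r) n
  rw [Prod.pow_mk, ← map_pow] at h
  exact h.symm

theorem lev_one (a b : F) : lev (k := k) a b 1 1 = 1 := by
  have h := map_one (blockIsoQ (QP k F) (binQ a b))
  have e : ((leviO k F) 1, (1 : ↥(Cfsg.isometryGroup F (⇑(binQ a b)))))
      = (1 : ↥(Cfsg.isometryGroup F (⇑(QP k F))) × ↥(Cfsg.isometryGroup F (⇑(binQ a b)))) := by
    rw [map_one]
    rfl
  rw [← e] at h
  exact h

theorem lev_det (a b : F) (A : Matrix.GeneralLinearGroup (Fin k) F)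
    (r : ↥(Cfsg.isometryGroup F (⇑(binQ a b)))) :
    (((lev a b A r : OM k F a b) : Matrix.GeneralLinearGroup ((Fin k ⊕ Fin k) ⊕ Fin 2) F) :
      Matrix ((Fin k ⊕ Fin k) ⊕ Fin 2) ((Fin k ⊕ Fin k) ⊕ Fin 2) F).det = (bmat r).det := by
  have e : (((lev a b A r : OM k F a b) :
      Matrix.GeneralLinearGroup ((Fin k ⊕ Fin k) ⊕ Fin 2) F) :
      Matrix ((Fin k ⊕ Fin k) ⊕ Fin 2) ((Fin k ⊕ Fin k) ⊕ Fin 2) F)
      = Matrix.fromBlocks (((leviO k F A : ↥(Cfsg.isometryGroup F (⇑(QP k F)))) :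
          Matrix.GeneralLinearGroup (Fin k ⊕ Fin k) F) :
          Matrix (Fin k ⊕ Fin k) (Fin k ⊕ Fin k) F) 0 0 (bmat r) := rfl
  rw [e, Matrix.det_fromBlocks_zero₂₁, det_leviO, one_mul]

section fin

variable [Fintype F]

theorem spin_lev [DecidableEq F] (a b : F) (hd : a ^ 2 - 4 * b ≠ 0) (h2 : (2 : F) ≠ 0)
    (A : Matrix.GeneralLinearGroup (Fin k) F) (r : ↥(Cfsg.isometryGroup F (⇑(binQ a b)))) :
    spinSign (QMin k F a b) (lev a b A r)
      = (quadraticChar F).toUnitHom (Matrix.GeneralLinearGroup.det A) * spinSign (binQ a b) r := by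
  have h := spinSign_blockIsoQ (QP k F) (binQ a b) h2 (QP_nondeg k F) (binQ_nondeg a b hd)
    (leviO k F A) r
  rw [spinSign_leviO k F h2] at h
  exact h

theorem odd_mem (a b : F) (hd : a ^ 2 - 4 * b ≠ 0) (hk : 3 ≤ k) (x : OM k F a b) (n : ℕ)
    (hn : Odd n) (hx : x ^ n = 1) : x ∈ commutator (OM k F a b) := by
  obtain ⟨M, rfl⟩ := hn
  have hQ := QMin_nondeg k a b hd
  have h5 : 5 ≤ Module.finrank F ((Fin k ⊕ Fin k) ⊕ Fin 2 → F) := by
    rw [finrank_minus]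
    omega
  have hsq := sq_mem_commutator (reflSet (QMin k F a b)) (reflSet_invol _)
    (closure_reflSet_eq_top_all _ hQ h5) (x ^ (M + 1))
  have e : x ^ (M + 1) * x ^ (M + 1) = x := by
    rw [← pow_add]
    have : M + 1 + (M + 1) = (2 * M + 1) + 1 := by ring
    rw [this, pow_succ, hx, one_mul]
  rwa [e] at hsq

/-- piece M-MEM (1) of S2415. -/
theorem mem_a (a b : F)
    (hab : ∀ z₁ z₂ : F, z₁ ^ 2 + a * z₁ * z₂ + b * z₂ ^ 2 = 0 → z₁ = 0 ∧ z₂ = 0)
    (hk : 3 ≤ k) (B : Matrix.GeneralLinearGroup (Fin k) F)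
    (hB : (2 : F) ≠ 0 → ¬ IsSquare (B : Matrix (Fin k) (Fin k) F).det)
    (hBo : B ^ (Fintype.card F ^ k - 1) = 1)
    (r : ↥(Cfsg.isometryGroup F (⇑(binQ a b)))) (hr : r ^ (Fintype.card F + 1) = 1)
    (hdet : (bmat r).det = 1) :
    lev a b B r ∈ commutator (OM k F a b) ∨ lev a b (B * B) r ∈ commutator (OM k F a b) := by
  classical
  have hd : a ^ 2 - 4 * b ≠ 0 := disc_ne_zero_of_aniso a b hab
  have hQ := QMin_nondeg k a b hd
  by_cases h2 : (2 : F) = 0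
  · left
    have hc : CharP F 2 := CharTwo.of_one_ne_zero_of_two_eq_zero one_ne_zero h2
    have hq : Fintype.card F % 2 = 0 := FiniteField.even_card_of_char_two (ringChar.eq F 2)
    apply odd_mem a b hd hk _ ((Fintype.card F ^ k - 1) * (Fintype.card F + 1))
    · have h1 : Fintype.card F ^ k % 2 = 0 := by
        have h0 : 2 ∣ Fintype.card F := Nat.dvd_of_mod_eq_zero hq
        exact Nat.mod_eq_zero_of_dvd (dvd_pow h0 (by omega))
      have hpos : 0 < Fintype.card F ^ k := Nat.pos_of_ne_zero (pow_ne_zero _ Fintype.card_ne_zero)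
      rw [Nat.odd_iff, Nat.mul_mod]
      have e1 : (Fintype.card F ^ k - 1) % 2 = 1 := by omega
      have e2 : (Fintype.card F + 1) % 2 = 1 := by omega
      rw [e1, e2]
    · rw [lev_pow, pow_mul, hBo, one_pow, mul_comm, pow_mul, hr, one_pow, lev_one]
  · have hsB : (quadraticChar F).toUnitHom (Matrix.GeneralLinearGroup.det B) = -1 := by
      apply Units.ext
      rw [MulChar.coe_toUnitHom, Matrix.GeneralLinearGroup.val_det_apply, Units.val_neg,
        Units.val_one]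
      exact quadraticChar_neg_one_iff_not_isSquare.mpr (hB h2)
    have hdetl : ∀ A : Matrix.GeneralLinearGroup (Fin k) F,
        (((lev a b A r : OM k F a b) : Matrix.GeneralLinearGroup ((Fin k ⊕ Fin k) ⊕ Fin 2) F) :
        Matrix ((Fin k ⊕ Fin k) ⊕ Fin 2) ((Fin k ⊕ Fin k) ⊕ Fin 2) F).det = 1 := fun A => by
      rw [lev_det, hdet]
    rcases Int.units_eq_one_or (spinSign (binQ a b) r) with hs | hs
    · right
      rw [mem_commutator_iff_spinSign_det (QMin k F a b) h2 hQ]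
      refine ⟨?_, hdetl _⟩
      rw [spin_lev a b hd h2, hs, map_mul, map_mul, hsB]
      simp
    · left
      rw [mem_commutator_iff_spinSign_det (QMin k F a b) h2 hQ]
      refine ⟨?_, hdetl _⟩
      rw [spin_lev a b hd h2, hs, hsB]
      simp

end fin

/-! ### The Weyl-type element -/

theorem swap_isometry (N N' : Matrix (Fin k) (Fin k) F) (h : Nᵀ * N' = 1)
    (x : Fin k ⊕ Fin k → F) :
    Cfsg.quadFormPlus k F (Matrix.fromBlocks 0 N N' 0 *ᵥ x) = Cfsg.quadFormPlus k F x := by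
  obtain ⟨p, q, rfl⟩ : ∃ p q : Fin k → F, x = Sum.elim p q :=
    ⟨x ∘ Sum.inl, x ∘ Sum.inr, (Sum.elim_comp_inl_inr x).symm⟩
  rw [Matrix.fromBlocks_mulVec]
  show (0 *ᵥ p + N *ᵥ q) ⬝ᵥ (N' *ᵥ p + 0 *ᵥ q) = p ⬝ᵥ q
  rw [Matrix.zero_mulVec, Matrix.zero_mulVec, zero_add, add_zero, dot_mulVec_mulVec, h,
    Matrix.one_mulVec, dotProduct_comm]

/-- The element of `O⁺` interchanging the two blocks via `N`, `N'`. -/
def swapO (N N' : Matrix (Fin k) (Fin k) F) (h : Nᵀ * N' = 1) :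
    ↥(Cfsg.isometryGroup F (⇑(QP k F))) :=
  ⟨⟨Matrix.fromBlocks 0 N N' 0, Matrix.fromBlocks 0 Nᵀ N'ᵀ 0, by
      rw [Matrix.fromBlocks_multiply]
      simp only [Matrix.zero_mul, Matrix.mul_zero, zero_add, add_zero]
      rw [(transpose_inv_of h).1, (transpose_inv_of h).2, Matrix.fromBlocks_one], by
      rw [Matrix.fromBlocks_multiply]
      simp only [Matrix.zero_mul, Matrix.mul_zero, zero_add, add_zero]
      have h4 : N'ᵀ * N = 1 := by
        have := congrArg Matrix.transpose h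
        rwa [Matrix.transpose_mul, Matrix.transpose_transpose, Matrix.transpose_one] at this
      rw [h, h4, Matrix.fromBlocks_one]⟩,
    mem_isometryGroup_iff.mpr (fun x => swap_isometry N N' h x)⟩

theorem swapO_mulVec (N N' : Matrix (Fin k) (Fin k) F) (h : Nᵀ * N' = 1) (x y : Fin k → F) :
    (((swapO N N' h : ↥(Cfsg.isometryGroup F (⇑(QP k F)))) :
      Matrix.GeneralLinearGroup (Fin k ⊕ Fin k) F) : Matrix (Fin k ⊕ Fin k) (Fin k ⊕ Fin k) F)
        *ᵥ Sum.elim x y = Sum.elim (N *ᵥ y) (N' *ᵥ x) := by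
  show Matrix.fromBlocks 0 N N' 0 *ᵥ Sum.elim x y = _
  rw [Matrix.fromBlocks_mulVec]
  simp

theorem isWeyl_block (a b : F) (w : ↥(Cfsg.isometryGroup F (⇑(QP k F))))
    (ν : ↥(Cfsg.isometryGroup F (⇑(binQ a b)))) (N N' : Matrix (Fin k) (Fin k) F)
    (hw : ∀ x y : Fin k → F,
      ((w : Matrix.GeneralLinearGroup (Fin k ⊕ Fin k) F) :
        Matrix (Fin k ⊕ Fin k) (Fin k ⊕ Fin k) F) *ᵥ Sum.elim x y
        = Sum.elim (N *ᵥ y) (N' *ᵥ x)) :
    IsWeyl (a := a) (b := b) (blockIsoQ (QP k F) (binQ a b) (w, ν)) N N' (bmat ν) := by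
  intro x y z
  have h1 := blockIsoQ_mulVec_inl (QP k F) (binQ a b) (w, ν) (tri x y z)
  have h2 := blockIsoQ_mulVec_inr (QP k F) (binQ a b) (w, ν) (tri x y z)
  have e1 : (tri x y z) ∘ Sum.inl = Sum.elim x y := rfl
  have e2 : (tri x y z) ∘ Sum.inr = z := rfl
  rw [e1, hw] at h1
  rw [e2] at h2
  funext i
  rcases i with (i | i) | i
  · exact congrFun h1 (Sum.inl i)
  · exact congrFun h1 (Sum.inr i)
  · exact congrFun h2 i

theorem isWeyl_levi_mul {a b : F} {h g : OM k F a b} {A A' N N' : Matrix (Fin k) (Fin k) F}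
    {ρ ν : Matrix (Fin 2) (Fin 2) F} (hh : IsLevi h A A' ρ) (hg : IsWeyl g N N' ν) :
    IsWeyl (h * g) (A * N) (A' * N') (ρ * ν) := by
  intro x y z
  rw [act_mul, hg, hh, Matrix.mulVec_mulVec, Matrix.mulVec_mulVec, Matrix.mulVec_mulVec]

theorem binQ_e0 (a b : F) : binQ a b ![1, 0] = 1 := by
  rw [binQ_apply]
  simp

theorem lev_refl_mem_reflSet (a b : F) :
    lev (k := k) a b 1 (reflG (binQ a b) ![1, 0]) ∈ reflSet (QMin k F a b) := by
  refine ⟨Sum.elim 0 ![1, 0], ?_, ?_⟩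
  · have e : QMin k F a b (Sum.elim 0 ![1, 0]) = binQ a b ![1, 0] := by
      show sumQ (QP k F) (binQ a b) (Sum.elim 0 ![1, 0]) = _
      rw [sumQ_apply, Sum.elim_comp_inl, Sum.elim_comp_inr, QuadraticMap.map_zero, zero_add]
    rw [e, binQ_e0]
    exact one_ne_zero
  · have h := blockIsoQ_reflG_right (QP k F) (binQ a b) ![1, 0]
    have e : ((leviO k F) 1, reflG (binQ a b) ![1, 0])
        = ((1 : ↥(Cfsg.isometryGroup F (⇑(QP k F)))), reflG (binQ a b) ![1, 0]) := by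
      rw [map_one]
    unfold lev
    rw [e]
    exact h

section fin2

variable [Fintype F]

/-- one of the four twists of an isometry lies in `Ω`. -/
theorem exists_twist_mem (a b : F)
    (hab : ∀ z₁ z₂ : F, z₁ ^ 2 + a * z₁ * z₂ + b * z₂ ^ 2 = 0 → z₁ = 0 ∧ z₂ = 0)
    (hk : 3 ≤ k) (B : Matrix.GeneralLinearGroup (Fin k) F)
    (hB : (2 : F) ≠ 0 → ¬ IsSquare (B : Matrix (Fin k) (Fin k) F).det) (g₀ : OM k F a b) :
    ∃ (A : Matrix.GeneralLinearGroup (Fin k) F) (ν : ↥(Cfsg.isometryGroup F (⇑(binQ a b)))),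
      (A = 1 ∨ A = B) ∧ (ν = 1 ∨ ν = reflG (binQ a b) ![1, 0]) ∧
      lev a b A ν * g₀ ∈ commutator (OM k F a b) := by
  classical
  have hd : a ^ 2 - 4 * b ≠ 0 := disc_ne_zero_of_aniso a b hab
  have hQ := QMin_nondeg k a b hd
  by_cases h2 : (2 : F) = 0
  · have hV : Module.finrank F ((Fin k ⊕ Fin k) ⊕ Fin 2 → F) = 2 * (k + 1) := finrank_minus k
    rcases mem_commutator_or_two (QMin k F a b) h2 hQ hV (Or.inr (by omega)) g₀ with h | h
    · refine ⟨1, 1, Or.inl rfl, Or.inl rfl, ?_⟩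
      rw [lev_one, one_mul]
      exact h
    · exact ⟨1, reflG (binQ a b) ![1, 0], Or.inl rfl, Or.inr rfl,
        h _ (lev_refl_mem_reflSet a b)⟩
  · -- choose ν to fix the determinant
    have hrr : (bmat (reflG (binQ a b) ![1, 0])).det = -1 :=
      det_reflectionMatrix (binQ a b) ![1, 0] (by rw [binQ_e0]; exact one_ne_zero)
    obtain ⟨ν, hν, hdet⟩ : ∃ ν : ↥(Cfsg.isometryGroup F (⇑(binQ a b))),
        (ν = 1 ∨ ν = reflG (binQ a b) ![1, 0]) ∧
        (bmat ν).det * ((g₀ : Matrix.GeneralLinearGroup ((Fin k ⊕ Fin k) ⊕ Fin 2) F) :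
          Matrix ((Fin k ⊕ Fin k) ⊕ Fin 2) ((Fin k ⊕ Fin k) ⊕ Fin 2) F).det = 1 := by
      rcases det_eq_one_or (QMin k F a b) h2 hQ g₀ with h | h
      · refine ⟨1, Or.inl rfl, ?_⟩
        rw [h, mul_one]
        show (1 : Matrix (Fin 2) (Fin 2) F).det = 1
        exact Matrix.det_one
      · refine ⟨reflG (binQ a b) ![1, 0], Or.inr rfl, ?_⟩
        rw [h, hrr]
        ring
    have hdetl : ∀ A : Matrix.GeneralLinearGroup (Fin k) F,
        (((lev a b A ν * g₀ : OM k F a b) :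
          Matrix.GeneralLinearGroup ((Fin k ⊕ Fin k) ⊕ Fin 2) F) :
          Matrix ((Fin k ⊕ Fin k) ⊕ Fin 2) ((Fin k ⊕ Fin k) ⊕ Fin 2) F).det = 1 := by
      intro A
      have e : (((lev a b A ν * g₀ : OM k F a b) :
          Matrix.GeneralLinearGroup ((Fin k ⊕ Fin k) ⊕ Fin 2) F) :
          Matrix ((Fin k ⊕ Fin k) ⊕ Fin 2) ((Fin k ⊕ Fin k) ⊕ Fin 2) F)
          = (((lev a b A ν : OM k F a b) :
              Matrix.GeneralLinearGroup ((Fin k ⊕ Fin k) ⊕ Fin 2) F) :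
              Matrix ((Fin k ⊕ Fin k) ⊕ Fin 2) ((Fin k ⊕ Fin k) ⊕ Fin 2) F)
            * ((g₀ : Matrix.GeneralLinearGroup ((Fin k ⊕ Fin k) ⊕ Fin 2) F) :
              Matrix ((Fin k ⊕ Fin k) ⊕ Fin 2) ((Fin k ⊕ Fin k) ⊕ Fin 2) F) := rfl
      rw [e, Matrix.det_mul, lev_det, hdet]
    have hsB : (quadraticChar F).toUnitHom (Matrix.GeneralLinearGroup.det B) = -1 := by
      apply Units.ext
      rw [MulChar.coe_toUnitHom, Matrix.GeneralLinearGroup.val_det_apply, Units.val_neg,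
        Units.val_one]
      exact quadraticChar_neg_one_iff_not_isSquare.mpr (hB h2)
    rcases Int.units_eq_one_or (spinSign (binQ a b) ν * spinSign (QMin k F a b) g₀) with hs | hs
    · refine ⟨1, ν, Or.inl rfl, hν, ?_⟩
      rw [mem_commutator_iff_spinSign_det (QMin k F a b) h2 hQ]
      refine ⟨?_, hdetl _⟩
      rw [map_mul, spin_lev a b hd h2, map_one, map_one, one_mul, hs]
    · refine ⟨B, ν, Or.inr rfl, hν, ?_⟩
      rw [mem_commutator_iff_spinSign_det (QMin k F a b) h2 hQ]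
      refine ⟨?_, hdetl _⟩
      rw [map_mul, spin_lev a b hd h2, hsB, mul_assoc, hs]
      simp

/-- piece M-MEM (2) of S2415. -/
theorem mem_n (a b : F)
    (hab : ∀ z₁ z₂ : F, z₁ ^ 2 + a * z₁ * z₂ + b * z₂ ^ 2 = 0 → z₁ = 0 ∧ z₂ = 0)
    (hk : 3 ≤ k) (B B' G G' : Matrix (Fin k) (Fin k) F)
    (hBB' : B * B' = 1) (hB'B : B' * B = 1) (hGG' : G * G' = 1) (hG'G : G' * G = 1)
    (hGB : G * B = Bᵀ * G) (hB : (2 : F) ≠ 0 → ¬ IsSquare B.det) :
    ∃ (n : OM k F a b) (N N' : Matrix (Fin k) (Fin k) F)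
      (ν : ↥(Cfsg.isometryGroup F (⇑(binQ a b)))),
      n ∈ commutator (OM k F a b) ∧ IsWeyl n N N' (bmat ν) ∧ N * Bᵀ = B * N ∧ N'ᵀ * N = 1 ∧
      (ν = 1 ∨ ν = reflG (binQ a b) ![1, 0]) := by
  have h₀ : G'ᵀ * Gᵀ = 1 := by
    rw [← Matrix.transpose_mul, hGG', Matrix.transpose_one]
  have c1 : G' * Bᵀ = B * G' := by
    have h1 : G' * (G * B) * G' = G' * (Bᵀ * G) * G' := by rw [hGB]
    rw [← Matrix.mul_assoc, hG'G, Matrix.one_mul, Matrix.mul_assoc G', Matrix.mul_assoc Bᵀ, hGG',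
      Matrix.mul_one] at h1
    exact h1.symm
  obtain ⟨g₀, hg₀⟩ : ∃ g₀ : OM k F a b,
      g₀ = blockIsoQ (QP k F) (binQ a b) (swapO G' Gᵀ h₀, 1) := ⟨_, rfl⟩
  have hg₀W : IsWeyl g₀ G' Gᵀ 1 := by
    rw [hg₀]
    exact isWeyl_block a b (swapO G' Gᵀ h₀) 1 G' Gᵀ (swapO_mulVec G' Gᵀ h₀)
  let Bu : Matrix.GeneralLinearGroup (Fin k) F := ⟨B, B', hBB', hB'B⟩
  obtain ⟨A, ν, hA, hν, hmem⟩ := exists_twist_mem a b hab hk Bu hB g₀
  have hW := isWeyl_levi_mul (isLevi_lev a b A ν) hg₀W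
  rw [Matrix.mul_one] at hW
  refine ⟨lev a b A ν * g₀, _, _, ν, hmem, hW, ?_, ?_, hν⟩
  · rcases hA with rfl | rfl
    · show (1 : Matrix (Fin k) (Fin k) F) * G' * Bᵀ = B * ((1 : Matrix (Fin k) (Fin k) F) * G')
      rw [Matrix.one_mul, c1]
    · show B * G' * Bᵀ = B * (B * G')
      rw [Matrix.mul_assoc, c1]
  · rw [Matrix.transpose_mul, Matrix.transpose_transpose, Matrix.transpose_transpose,
      Matrix.mul_assoc, ← Matrix.mul_assoc _ _ G']
    have e : ((A⁻¹ : Matrix.GeneralLinearGroup (Fin k) F) : Matrix (Fin k) (Fin k) F)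
        * (A : Matrix (Fin k) (Fin k) F) = 1 := by
      rw [← Units.val_mul, inv_mul_cancel]
      rfl
    rw [e, Matrix.one_mul, hGG']

end fin2

end Cfsg.Agent.H45.M
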