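import Mathlib
import Cfsg.Agent.H45.MDefs
import Cfsg.Agent.H45.MSeed

set_option autoImplicit false
set_option linter.unusedSectionVars false
set_option linter.unusedVariables false

/-!
# Weyl-type elements (helper45, piece M-WEYL of the S2415 team project)
-/

namespace Cfsg.Agent.H45.M

open Matrix Cfsg.Agent.H49

variable {F : Type*} [Field F] {k : ℕ}

theorem weyl_transpose_mul {a b : F} {n : OM k F a b} {N N' : Matrix (Fin k) (Fin k) F}
    {ν : Matrix (Fin 2) (Fin 2) F} (hn : IsWeyl n N N' ν) : Nᵀ * N' = 1 := by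
  apply mat_eq_one_of_dot
  intro y x
  have h := Q_act (QMin k F a b) n (tri x y 0)
  rw [hn, QMin_tri, QMin_tri, Matrix.mulVec_zero] at h
  rw [← dot_mulVec_mulVec, dotProduct_comm y x]
  exact add_right_cancel h

theorem weyl_exists_inv {a b : F} {n : OM k F a b} {N N' : Matrix (Fin k) (Fin k) F}
    {ν : Matrix (Fin 2) (Fin 2) F} (hn : IsWeyl n N N' ν) :
    ∃ ν' : Matrix (Fin 2) (Fin 2) F, ν * ν' = 1 := by
  have hinj : Function.Injective ν.mulVec := by
    intro z z' hzz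
    have h1 : act n (tri 0 0 z) = act n (tri 0 0 z') := by
      rw [hn, hn]
      show tri _ _ (ν.mulVec z) = tri _ _ (ν.mulVec z')
      rw [hzz]
    have h2 : tri (0 : Fin k → F) 0 z = tri 0 0 z' := by
      rw [← act_inv_act n (tri 0 0 z), h1, act_inv_act]
    exact (tri_inj h2).2.2
  have hu : IsUnit ν := Matrix.mulVec_injective_iff_isUnit.mp hinj
  obtain ⟨ν', hν'⟩ := hu.exists_right_inv
  exact ⟨ν', hν'⟩

/-- the inverse of a Weyl-type element. -/
theorem isWeyl_inv {a b : F} {n : OM k F a b} {N N' : Matrix (Fin k) (Fin k) F}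
    {ν ν' : Matrix (Fin 2) (Fin 2) F} (hn : IsWeyl n N N' ν) (hν : ν * ν' = 1) :
    IsWeyl n⁻¹ Nᵀ N'ᵀ ν' := by
  have h1 : Nᵀ * N' = 1 := weyl_transpose_mul hn
  obtain ⟨h2, h3⟩ := transpose_inv_of h1
  intro x y z
  apply act_inv_eq
  rw [hn, Matrix.mulVec_mulVec, Matrix.mulVec_mulVec, Matrix.mulVec_mulVec, h2, h3, hν,
    Matrix.one_mulVec, Matrix.one_mulVec, Matrix.one_mulVec]

/-- piece M-WEYL (2) of S2415. -/
theorem isLevi_conj_weyl {a b : F} (n g : OM k F a b) (N N' A A' : Matrix (Fin k) (Fin k) F)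
    (ν ν' ρ : Matrix (Fin 2) (Fin 2) F) (hn : IsWeyl n N N' ν) (hν : ν * ν' = 1)
    (hg : IsLevi g A A' ρ) :
    IsLevi (n * g * n⁻¹) (N * A' * N'ᵀ) (N' * A * Nᵀ) (ν * ρ * ν') := by
  have hn' := isWeyl_inv hn hν
  intro x y z
  rw [act_mul, act_mul, hn', hg, hn, Matrix.mulVec_mulVec, Matrix.mulVec_mulVec,
    Matrix.mulVec_mulVec, Matrix.mulVec_mulVec, Matrix.mulVec_mulVec, Matrix.mulVec_mulVec]

/-- piece M-WEYL (1) of S2415. -/
theorem qlow_of_weyl {a b : F} (K : Subgroup (OM k F a b)) (hU : Qin K) (n : OM k F a b)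
    (N N' : Matrix (Fin k) (Fin k) F) (ν : Matrix (Fin 2) (Fin 2) F) (hn : IsWeyl n N N' ν)
    (hnK : n ∈ K) : Qlow K := by
  obtain ⟨ν', hν⟩ := weyl_exists_inv hn
  have hν' : ν' * ν = 1 := mul_eq_one_comm.mp hν
  have hn' := isWeyl_inv hn hν
  have h1 : Nᵀ * N' = 1 := weyl_transpose_mul hn
  have h4 : N'ᵀ * N = 1 := by
    have := congrArg Matrix.transpose h1
    rwa [Matrix.transpose_mul, Matrix.transpose_transpose, Matrix.transpose_one] at this
  intro g γ S hg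
  have hP : IsP (n⁻¹ * g * n) 1 1 1 (ν' * γ * N) := by
    refine ⟨fun x => ?_, fun y => ⟨(Nᵀ * S * N) *ᵥ y, ?_⟩,
      fun z => ⟨-((Nᵀ * (γᵀ * gam a b) * ν) *ᵥ z), ?_⟩⟩
    · rw [act_mul, act_mul, hn, hg, hn']
      simp only [Matrix.mulVec_zero, add_zero, sub_zero, Matrix.mulVec_mulVec, h1,
        Matrix.one_mulVec]
    · rw [act_mul, act_mul, hn, hg, hn']
      simp only [Matrix.mulVec_zero, sub_zero, zero_add, Matrix.mulVec_mulVec, h4,
        Matrix.one_mulVec, Matrix.mul_assoc]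
    · rw [act_mul, act_mul, hn, hg, hn']
      simp only [Matrix.mulVec_zero, add_zero, zero_sub, Matrix.mulVec_mulVec,
        Matrix.mulVec_neg, hν', Matrix.one_mulVec, Matrix.mul_assoc]
  obtain ⟨S', hS'⟩ := isU_of_isP hP
  have hmem : n⁻¹ * g * n ∈ K := hU _ _ _ hS'
  have e : g = n * (n⁻¹ * g * n) * n⁻¹ := by group
  rw [e]
  exact K.mul_mem (K.mul_mem hnK hmem) (K.inv_mem hnK)

end Cfsg.Agent.H45.M
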