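import Mathlib
import Cfsg.Agent.H45.MDefs
import Cfsg.Agent.H45.MSeed
import Cfsg.Agent.H45.MWeyl
import Cfsg.Agent.H45.MMem
import Cfsg.Agent.H44.MBase

set_option autoImplicit false
set_option linter.unusedSectionVars false
set_option linter.unusedVariables false

/-!
# Base lemmas for the plus-type two-generation project S2414 (helper45)

Versions of the S2415 lemmas that only need the discriminant hypothesis `a ^ 2 - 4 * b ≠ 0`.
-/

namespace Cfsg.Agent.H45.MP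

open Matrix Cfsg.Agent.H49 Cfsg.Agent.H45.M

variable {F : Type*} [Field F] {k : ℕ}

theorem vecMulVec_mul_transpose (d : Fin 2 → F) (w : Fin k → F) (M : Matrix (Fin k) (Fin k) F) :
    vecMulVec d w * Mᵀ = vecMulVec d (M *ᵥ w) := by
  ext i j
  simp only [Matrix.mul_apply, Matrix.vecMulVec_apply, Matrix.transpose_apply, Matrix.mulVec,
    dotProduct, Finset.mul_sum]
  apply Finset.sum_congr rfl
  intro l _
  ring

theorem binQ_eq_dot (a b : F) (z : Fin 2 → F) :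
    binQ a b z = z ⬝ᵥ (!![1, a; 0, b] *ᵥ z) := by
  rw [binQ_apply]
  simp only [dotProduct, Matrix.mulVec, Fin.sum_univ_two, Matrix.of_apply,
    Matrix.cons_val', Matrix.cons_val_zero, Matrix.cons_val_one, Matrix.cons_val_fin_one]
  ring

/-- Every `γ` is the parameter of an upper unipotent element. -/
theorem exists_U (a b : F) (γ : Matrix (Fin 2) (Fin k) F) :
    ∃ (g : OM k F a b) (S : Matrix (Fin k) (Fin k) F), IsU g γ S := by
  have h : ∀ y : Fin k → F,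
      y ⬝ᵥ (-(γᵀ * !![1, a; 0, b] * γ)) *ᵥ y + binQ a b (γ *ᵥ y) = 0 := by
    intro y
    rw [binQ_eq_dot, Matrix.neg_mulVec, dotProduct_neg, ← Matrix.mulVec_mulVec,
      ← Matrix.mulVec_mulVec, Matrix.mulVec_transpose, dotProduct_comm y,
      ← Matrix.dotProduct_mulVec, dotProduct_comm _ (γ *ᵥ y)]
    ring
  obtain ⟨g, hg⟩ := Cfsg.Agent.H44.M.exists_eU a b γ _ h
  exact ⟨g, _, hg⟩

section fin

variable [Fintype F]

/-- one of the four twists of an isometry lies in `Ω` (discriminant version). -/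
theorem exists_twist_mem' (a b : F) (hd : a ^ 2 - 4 * b ≠ 0)
    (hk : 3 ≤ k) (B : Matrix.GeneralLinearGroup (Fin k) F)
    (hB : (2 : F) ≠ 0 → ¬ IsSquare (B : Matrix (Fin k) (Fin k) F).det) (g₀ : OM k F a b) :
    ∃ (A : Matrix.GeneralLinearGroup (Fin k) F) (ν : ↥(Cfsg.isometryGroup F (⇑(binQ a b)))),
      (A = 1 ∨ A = B) ∧ (ν = 1 ∨ ν = reflG (binQ a b) ![1, 0]) ∧
      lev a b A ν * g₀ ∈ commutator (OM k F a b) := by
  classical
  have hQ := QMin_nondeg k a b hd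
  by_cases h2 : (2 : F) = 0
  · have hV : Module.finrank F ((Fin k ⊕ Fin k) ⊕ Fin 2 → F) = 2 * (k + 1) := finrank_minus k
    rcases mem_commutator_or_two (QMin k F a b) h2 hQ hV (Or.inr (by omega)) g₀ with h | h
    · refine ⟨1, 1, Or.inl rfl, Or.inl rfl, ?_⟩
      rw [lev_one, one_mul]
      exact h
    · exact ⟨1, reflG (binQ a b) ![1, 0], Or.inl rfl, Or.inr rfl,
        h _ (lev_refl_mem_reflSet a b)⟩
  · -- choose ν to fix the determinant
    have hrr : (bmat (reflG (binQ a b) ![1, 0])).det = -1 :=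
      det_reflectionMatrix (binQ a b) ![1, 0] (by rw [binQ_e0]; exact one_ne_zero)
    obtain ⟨ν, hν, hdet⟩ : ∃ ν : ↥(Cfsg.isometryGroup F (⇑(binQ a b))),
        (ν = 1 ∨ ν = reflG (binQ a b) ![1, 0]) ∧
        (bmat ν).det * ((g₀ : Matrix.GeneralLinearGroup ((Fin k ⊕ Fin k) ⊕ Fin 2) F) :
          Matrix ((Fin k ⊕ Fin k) ⊕ Fin 2) ((Fin k ⊕ Fin k) ⊕ Fin 2) F).det = 1 := by
      rcases det_eq_one_or (QMin k F a b) h2 hQ g₀ with h | h
      · refine ⟨1, Or.inl rfl, ?_⟩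
        rw [h, mul_one]
        show (1 : Matrix (Fin 2) (Fin 2) F).det = 1
        exact Matrix.det_one
      · refine ⟨reflG (binQ a b) ![1, 0], Or.inr rfl, ?_⟩
        rw [h, hrr]
        ring
    have hdetl : ∀ A : Matrix.GeneralLinearGroup (Fin k) F,
        (((lev a b A ν * g₀ : OM k F a b) :
          Matrix.GeneralLinearGroup ((Fin k ⊕ Fin k) ⊕ Fin 2) F) :
          Matrix ((Fin k ⊕ Fin k) ⊕ Fin 2) ((Fin k ⊕ Fin k) ⊕ Fin 2) F).det = 1 := by
      intro A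
      have e : (((lev a b A ν * g₀ : OM k F a b) :
          Matrix.GeneralLinearGroup ((Fin k ⊕ Fin k) ⊕ Fin 2) F) :
          Matrix ((Fin k ⊕ Fin k) ⊕ Fin 2) ((Fin k ⊕ Fin k) ⊕ Fin 2) F)
          = (((lev a b A ν : OM k F a b) :
              Matrix.GeneralLinearGroup ((Fin k ⊕ Fin k) ⊕ Fin 2) F) :
              Matrix ((Fin k ⊕ Fin k) ⊕ Fin 2) ((Fin k ⊕ Fin k) ⊕ Fin 2) F)
            * ((g₀ : Matrix.GeneralLinearGroup ((Fin k ⊕ Fin k) ⊕ Fin 2) F) :
              Matrix ((Fin k ⊕ Fin k) ⊕ Fin 2) ((Fin k ⊕ Fin k) ⊕ Fin 2) F) := rfl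
      rw [e, Matrix.det_mul, lev_det, hdet]
    have hsB : (quadraticChar F).toUnitHom (Matrix.GeneralLinearGroup.det B) = -1 := by
      apply Units.ext
      rw [MulChar.coe_toUnitHom, Matrix.GeneralLinearGroup.val_det_apply, Units.val_neg,
        Units.val_one]
      exact quadraticChar_neg_one_iff_not_isSquare.mpr (hB h2)
    rcases Int.units_eq_one_or (spinSign (binQ a b) ν * spinSign (QMin k F a b) g₀) with hs | hs
    · refine ⟨1, ν, Or.inl rfl, hν, ?_⟩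
      rw [mem_commutator_iff_spinSign_det (QMin k F a b) h2 hQ]
      refine ⟨?_, hdetl _⟩
      rw [map_mul, spin_lev a b hd h2, map_one, map_one, one_mul, hs]
    · refine ⟨B, ν, Or.inr rfl, hν, ?_⟩
      rw [mem_commutator_iff_spinSign_det (QMin k F a b) h2 hQ]
      refine ⟨?_, hdetl _⟩
      rw [map_mul, spin_lev a b hd h2, hsB, mul_assoc, hs]
      simp

/-- The Weyl-type element in `Ω` (discriminant version of `mem_n`). -/
theorem mem_n' (a b : F) (hd : a ^ 2 - 4 * b ≠ 0)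
    (hk : 3 ≤ k) (B B' G G' : Matrix (Fin k) (Fin k) F)
    (hBB' : B * B' = 1) (hB'B : B' * B = 1) (hGG' : G * G' = 1) (hG'G : G' * G = 1)
    (hGB : G * B = Bᵀ * G) (hB : (2 : F) ≠ 0 → ¬ IsSquare B.det) :
    ∃ (n : OM k F a b) (N N' : Matrix (Fin k) (Fin k) F)
      (ν : ↥(Cfsg.isometryGroup F (⇑(binQ a b)))),
      n ∈ commutator (OM k F a b) ∧ IsWeyl n N N' (bmat ν) ∧ N * Bᵀ = B * N ∧ N'ᵀ * N = 1 ∧
      (ν = 1 ∨ ν = reflG (binQ a b) ![1, 0]) := by
  have h₀ : G'ᵀ * Gᵀ = 1 := by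
    rw [← Matrix.transpose_mul, hGG', Matrix.transpose_one]
  have c1 : G' * Bᵀ = B * G' := by
    have h1 : G' * (G * B) * G' = G' * (Bᵀ * G) * G' := by rw [hGB]
    rw [← Matrix.mul_assoc, hG'G, Matrix.one_mul, Matrix.mul_assoc G', Matrix.mul_assoc Bᵀ, hGG',
      Matrix.mul_one] at h1
    exact h1.symm
  obtain ⟨g₀, hg₀⟩ : ∃ g₀ : OM k F a b,
      g₀ = blockIsoQ (QP k F) (binQ a b) (swapO G' Gᵀ h₀, 1) := ⟨_, rfl⟩
  have hg₀W : IsWeyl g₀ G' Gᵀ 1 := by
    rw [hg₀]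
    exact isWeyl_block a b (swapO G' Gᵀ h₀) 1 G' Gᵀ (swapO_mulVec G' Gᵀ h₀)
  let Bu : Matrix.GeneralLinearGroup (Fin k) F := ⟨B, B', hBB', hB'B⟩
  obtain ⟨A, ν, hA, hν, hmem⟩ := exists_twist_mem' a b hd hk Bu hB g₀
  have hW := isWeyl_levi_mul (isLevi_lev a b A ν) hg₀W
  rw [Matrix.mul_one] at hW
  refine ⟨lev a b A ν * g₀, _, _, ν, hmem, hW, ?_, ?_, hν⟩
  · rcases hA with rfl | rfl
    · show (1 : Matrix (Fin k) (Fin k) F) * G' * Bᵀ = B * ((1 : Matrix (Fin k) (Fin k) F) * G')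
      rw [Matrix.one_mul, c1]
    · show B * G' * Bᵀ = B * (B * G')
      rw [Matrix.mul_assoc, c1]
  · rw [Matrix.transpose_mul, Matrix.transpose_transpose, Matrix.transpose_transpose,
      Matrix.mul_assoc, ← Matrix.mul_assoc _ _ G']
    have e : ((A⁻¹ : Matrix.GeneralLinearGroup (Fin k) F) : Matrix (Fin k) (Fin k) F)
        * (A : Matrix (Fin k) (Fin k) F) = 1 := by
      rw [← Units.val_mul, inv_mul_cancel]
      rfl
    rw [e, Matrix.one_mul, hGG']

end fin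

/-- Central lower unipotent elements from central upper ones and a Weyl element. -/
theorem qlow0_of_weyl {a b : F} (K : Subgroup (OM k F a b))
    (hU : ∀ (h : OM k F a b) (S : Matrix (Fin k) (Fin k) F), IsU h 0 S → h ∈ K)
    (n : OM k F a b) (N N' : Matrix (Fin k) (Fin k) F) (ν : Matrix (Fin 2) (Fin 2) F)
    (hn : IsWeyl n N N' ν) (hnK : n ∈ K) :
    ∀ (h : OM k F a b) (S : Matrix (Fin k) (Fin k) F), IsL h 0 S → h ∈ K := by
  obtain ⟨ν', hν⟩ := weyl_exists_inv hn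
  have hν' : ν' * ν = 1 := mul_eq_one_comm.mp hν
  have hn' := isWeyl_inv hn hν
  have h1 : Nᵀ * N' = 1 := weyl_transpose_mul hn
  have h4 : N'ᵀ * N = 1 := by
    have := congrArg Matrix.transpose h1
    rwa [Matrix.transpose_mul, Matrix.transpose_transpose, Matrix.transpose_one] at this
  intro g S hg
  have hP : IsP (n⁻¹ * g * n) 1 1 1 (ν' * (0 : Matrix (Fin 2) (Fin k) F) * N) := by
    refine ⟨fun x => ?_, fun y => ⟨(Nᵀ * S * N) *ᵥ y, ?_⟩,
      fun z => ⟨-((Nᵀ * ((0 : Matrix (Fin 2) (Fin k) F)ᵀ * gam a b) * ν) *ᵥ z), ?_⟩⟩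
    · rw [act_mul, act_mul, hn, hg, hn']
      simp only [Matrix.mulVec_zero, add_zero, sub_zero, Matrix.mulVec_mulVec, h1,
        Matrix.one_mulVec]
    · rw [act_mul, act_mul, hn, hg, hn']
      simp only [Matrix.mulVec_zero, sub_zero, zero_add, Matrix.mulVec_mulVec, h4,
        Matrix.one_mulVec, Matrix.mul_assoc]
    · rw [act_mul, act_mul, hn, hg, hn']
      simp only [Matrix.mulVec_zero, add_zero, zero_sub, Matrix.mulVec_mulVec,
        Matrix.mulVec_neg, hν', Matrix.one_mulVec, Matrix.mul_assoc]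
  obtain ⟨S', hS'⟩ := isU_of_isP hP
  have e0 : ν' * (0 : Matrix (Fin 2) (Fin k) F) * N = 0 := by
    rw [Matrix.mul_zero, Matrix.zero_mul]
  rw [e0] at hS'
  have hmem : n⁻¹ * g * n ∈ K := hU _ _ hS'
  have e : g = n * (n⁻¹ * g * n) * n⁻¹ := by group
  rw [e]
  exact K.mul_mem (K.mul_mem hnK hmem) (K.inv_mem hnK)

end Cfsg.Agent.H45.MP
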