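import Mathlib

set_option autoImplicit false

namespace Cfsg.Agent.H45

section NilComm

variable {F : Type*} [Field F] [Fintype F] {V : Type*} [AddCommGroup V] [Module F V]
  [FiniteDimensional F V]

/-- Fixed-point counting: for `T` of prime order `r` and a `T`-invariant subspace `W`,
`|W| ≡ |C_W(T)|` modulo `r`. -/
theorem card_pow_modEq_fix (r : ℕ) [Fact r.Prime] (T : V →ₗ[F] V) (hT : T ^ r = 1)
    (W : Submodule F V) (hW : ∀ v ∈ W, T v ∈ W) :
    Fintype.card F ^ Module.finrank F W ≡
      Fintype.card F ^ Module.finrank F ↥(W ⊓ LinearMap.ker (T - 1)) [MOD r] := by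
  classical
  have : Finite V := Module.finite_of_finite F
  have : Fintype W := Fintype.ofFinite _
  let f : Function.End W := fun w => ⟨T w, hW w w.2⟩
  have hf : ∀ k (w : W), ((f ^ k) w : V) = (T ^ k) w := by
    intro k
    induction k with
    | zero => intro w; rfl
    | succ k ih =>
      intro w
      rw [pow_succ, pow_succ]
      exact ih (f w)
  have hfr : f ^ r ^ 1 = 1 := by
    funext w
    apply Subtype.ext
    rw [pow_one, hf, hT]
    rfl
  have key := Equiv.Perm.card_fixedPoints_modEq (p := r) (n := 1) hfr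
  have h1 : Fintype.card W = Fintype.card F ^ Module.finrank F W := by
    rw [← Nat.card_eq_fintype_card, Module.natCard_eq_pow_finrank (K := F),
      Nat.card_eq_fintype_card]
  have h2 : Fintype.card (Function.fixedPoints f) =
      Fintype.card F ^ Module.finrank F ↥(W ⊓ LinearMap.ker (T - 1)) := by
    rw [← Nat.card_eq_fintype_card, ← Nat.card_eq_fintype_card (α := F),
      ← Module.natCard_eq_pow_finrank (K := F)]
    apply Nat.card_congr
    refine ⟨fun w => ⟨w.1.1, Submodule.mem_inf.mpr ⟨w.1.2, ?_⟩⟩,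
      fun v => ⟨⟨v.1, (Submodule.mem_inf.mp v.2).1⟩, ?_⟩, ?_, ?_⟩
    · have hw : f w.1 = w.1 := w.2
      have hw' : T w.1.1 = w.1.1 := congrArg Subtype.val hw
      rw [LinearMap.mem_ker, LinearMap.sub_apply, hw']
      simp
    · have hv := (Submodule.mem_inf.mp v.2).2
      rw [LinearMap.mem_ker, LinearMap.sub_apply, sub_eq_zero] at hv
      show f ⟨v.1, (Submodule.mem_inf.mp v.2).1⟩ = ⟨v.1, (Submodule.mem_inf.mp v.2).1⟩
      apply Subtype.ext
      exact hv
    · intro w; rfl
    · intro v; rfl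
  rw [h1, h2] at key
  exact key

/-- Consequence: `r ∣ q ^ (dim W - dim C_W(T)) - 1`. -/
theorem dvd_pow_codim_fix (r : ℕ) [Fact r.Prime] (hrq : ¬ r ∣ Fintype.card F)
    (T : V →ₗ[F] V) (hT : T ^ r = 1)
    (W : Submodule F V) (hW : ∀ v ∈ W, T v ∈ W) :
    r ∣ Fintype.card F ^ (Module.finrank F W - Module.finrank F ↥(W ⊓ LinearMap.ker (T - 1))) - 1 := by
  have hr : r.Prime := Fact.out
  have key := card_pow_modEq_fix r T hT W hW
  have hle : Module.finrank F ↥(W ⊓ LinearMap.ker (T - 1)) ≤ Module.finrank F W :=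
    Submodule.finrank_mono inf_le_left
  set d := Module.finrank F W
  set f := Module.finrank F ↥(W ⊓ LinearMap.ker (T - 1))
  set q := Fintype.card F
  have hd : d = f + (d - f) := by omega
  rw [hd, pow_add] at key
  have hcop : Nat.Coprime (q ^ f) r := by
    apply Nat.Coprime.pow_left
    exact (Nat.Coprime.symm ((Nat.Prime.coprime_iff_not_dvd hr).mpr hrq))
  have key2 : q ^ f * q ^ (d - f) ≡ q ^ f * 1 [MOD r] := by simpa using key
  have key3 : q ^ (d - f) ≡ 1 [MOD r] := Nat.ModEq.cancel_left_of_coprime (by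
    rw [Nat.gcd_comm]; exact hcop) key2
  have hpos : 1 ≤ q ^ (d - f) := Nat.one_le_pow _ _ Fintype.card_pos
  exact (Nat.modEq_iff_dvd' hpos).mp key3.symm

/-- Core lemma: an element `T` of prime order `r` (with `r ∤ q`) of `GL(V)`, `dim V = n ≥ 3`,
commuting with a non-zero nilpotent endomorphism, has `r ∣ q^j - 1` for some `1 ≤ j ≤ n - 2`. -/
theorem exists_dvd_pow_sub_one_of_commute_nilpotent (r : ℕ) [Fact r.Prime]
    (hrq : ¬ r ∣ Fintype.card F)
    (T N : V →ₗ[F] V) (hTN : T * N = N * T) (hN0 : N ≠ 0) (hNnil : IsNilpotent N)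
    (hT : T ^ r = 1) (hT1 : T ≠ 1) (hdim : 3 ≤ Module.finrank F V) :
    ∃ j, 1 ≤ j ∧ j + 2 ≤ Module.finrank F V ∧ r ∣ Fintype.card F ^ j - 1 := by
  classical
  by_contra hcon
  push Not at hcon
  set n := Module.finrank F V with hn
  set Fix : Submodule F V := LinearMap.ker (T - 1) with hFix
  -- dichotomy for invariant subspaces
  have dich : ∀ W : Submodule F V, (∀ v ∈ W, T v ∈ W) →
      Module.finrank F W - Module.finrank F ↥(W ⊓ Fix) = 0 ∨
      n ≤ Module.finrank F W - Module.finrank F ↥(W ⊓ Fix) + 1 := by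
    intro W hW
    by_contra h
    push Not at h
    have h0 : r ∣ Fintype.card F ^ (Module.finrank F W - Module.finrank F ↥(W ⊓ Fix)) - 1 :=
      dvd_pow_codim_fix r hrq T hT W hW
    exact hcon _ (by omega) (by omega) h0
  have hTNv : ∀ v, T (N v) = N (T v) := fun v => by
    have := congrArg (fun f : V →ₗ[F] V => f v) hTN
    simpa using this
  -- the fixed space is small
  have hFixne : Fix ≠ ⊤ := by
    intro h
    apply hT1
    apply LinearMap.ext
    intro v
    have hv : v ∈ Fix := by rw [h]; trivial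
    rw [hFix, LinearMap.mem_ker, LinearMap.sub_apply, sub_eq_zero] at hv
    simpa using hv
  have hfV : Module.finrank F Fix ≤ 1 := by
    have h1 := dich ⊤ (fun v _ => trivial)
    have h2 : Module.finrank F ↥((⊤ : Submodule F V) ⊓ Fix) = Module.finrank F Fix := by
      rw [top_inf_eq]
    have h3 : Module.finrank F (⊤ : Submodule F V) = n := finrank_top F V
    have h4 : Module.finrank F Fix < n := Submodule.finrank_lt hFixne
    rw [h2, h3] at h1
    omega
  set K : Submodule F V := LinearMap.ker N with hK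
  set I : Submodule F V := LinearMap.range N with hI
  have hKinv : ∀ v ∈ K, T v ∈ K := by
    intro v hv
    rw [hK, LinearMap.mem_ker] at hv ⊢
    rw [← hTNv, hv, map_zero]
  have hIinv : ∀ v ∈ I, T v ∈ I := by
    rintro _ ⟨w, rfl⟩
    exact ⟨T w, (hTNv w).symm⟩
  have hrn : Module.finrank F I + Module.finrank F K = n := LinearMap.finrank_range_add_finrank_ker N
  -- I ⊓ K ≠ ⊥
  have hIK : I ⊓ K ≠ ⊥ := by
    obtain ⟨m, hm⟩ := hNnil
    have hex : ∃ m, N ^ m = 0 := ⟨m, hm⟩
    set k := Nat.find hex with hk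
    have hk0 : N ^ k = 0 := Nat.find_spec hex
    have hk1 : k ≠ 0 := by
      intro h0
      rw [h0, pow_zero] at hk0
      apply hN0
      have : N = N * 1 := (mul_one N).symm
      rw [this, hk0, mul_zero]
    have hk2 : k ≠ 1 := by
      intro h1
      rw [h1, pow_one] at hk0
      exact hN0 hk0
    have hk3 : N ^ (k - 1) ≠ 0 := Nat.find_min hex (by omega)
    obtain ⟨v, hv⟩ : ∃ v, (N ^ (k - 1)) v ≠ 0 := by
      by_contra hall
      push Not at hall
      apply hk3
      apply LinearMap.ext
      intro v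
      simpa using hall v
    intro hbot
    apply hv
    have hmem : (N ^ (k - 1)) v ∈ I ⊓ K := by
      refine Submodule.mem_inf.mpr ⟨?_, ?_⟩
      · refine ⟨(N ^ (k - 2)) v, ?_⟩
        have : k - 1 = (k - 2) + 1 := by omega
        rw [this, pow_succ']
        rfl
      · rw [hK, LinearMap.mem_ker]
        have : N ((N ^ (k - 1)) v) = (N ^ k) v := by
          have hkk : k = (k - 1) + 1 := by omega
          conv_rhs => rw [hkk, pow_succ']
          rfl
        rw [this, hk0]
        rfl
    rw [hbot] at hmem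
    simpa using hmem
  have hKne : K ≠ ⊥ := by
    intro h
    apply hIK
    rw [h, inf_bot_eq]
  have hIne : I ≠ ⊥ := by
    intro h
    apply hIK
    rw [h, bot_inf_eq]
  have hdK : 1 ≤ Module.finrank F K := by
    rw [Nat.one_le_iff_ne_zero]
    intro h0
    exact hKne (Submodule.finrank_eq_zero.mp h0)
  have hdI : 1 ≤ Module.finrank F I := by
    rw [Nat.one_le_iff_ne_zero]
    intro h0
    exact hIne (Submodule.finrank_eq_zero.mp h0)
  have hfK : Module.finrank F ↥(K ⊓ Fix) ≤ Module.finrank F Fix := Submodule.finrank_mono inf_le_right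
  have hfI : Module.finrank F ↥(I ⊓ Fix) ≤ Module.finrank F Fix := Submodule.finrank_mono inf_le_right
  have hfK' : Module.finrank F ↥(K ⊓ Fix) ≤ Module.finrank F K := Submodule.finrank_mono inf_le_left
  have hfI' : Module.finrank F ↥(I ⊓ Fix) ≤ Module.finrank F I := Submodule.finrank_mono inf_le_left
  rcases dich K hKinv with ha | ha <;> rcases dich I hIinv with hb | hb
  · omega
  · -- K ≤ Fix, I ⊓ Fix = ⊥
    have h1 : K ⊓ Fix = K := Submodule.eq_of_le_of_finrank_eq inf_le_left (by omega)
    have h2 : I ⊓ Fix = ⊥ := Submodule.finrank_eq_zero.mp (by omega)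
    apply hIK
    rw [eq_bot_iff, ← h2]
    refine le_inf inf_le_left ?_
    calc I ⊓ K ≤ K := inf_le_right
      _ = K ⊓ Fix := h1.symm
      _ ≤ Fix := inf_le_right
  · have h1 : I ⊓ Fix = I := Submodule.eq_of_le_of_finrank_eq inf_le_left (by omega)
    have h2 : K ⊓ Fix = ⊥ := Submodule.finrank_eq_zero.mp (by omega)
    apply hIK
    rw [eq_bot_iff, ← h2]
    refine le_inf inf_le_right ?_
    calc I ⊓ K ≤ I := inf_le_left
      _ = I ⊓ Fix := h1.symm
      _ ≤ Fix := inf_le_right
  · omega

end NilComm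

end Cfsg.Agent.H45
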