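import Mathlib

set_option autoImplicit false

namespace Cfsg.Agent.H45

open Matrix

section SpLS

variable {F : Type*} [Field F] {n : ℕ}

/-- The symmetric matrix `e₀ aᵀ + a e₀ᵀ`. -/
def symS (i₀ : Fin n) (a : Fin n → F) : Matrix (Fin n) (Fin n) F :=
  vecMulVec (Pi.single i₀ 1) a + vecMulVec a (Pi.single i₀ 1)

theorem symS_transpose (i₀ : Fin n) (a : Fin n → F) : (symS i₀ a)ᵀ = symS i₀ a := by
  unfold symS
  rw [transpose_add, transpose_vecMulVec, transpose_vecMulVec, add_comm]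

theorem symS_add (i₀ : Fin n) (a b : Fin n → F) : symS i₀ (a + b) = symS i₀ a + symS i₀ b := by
  unfold symS
  rw [vecMulVec_add, add_vecMulVec]
  abel

/-- The unipotent elements `[1, S_a; 0, 1]` of the symplectic group. -/
def uSp (i₀ : Fin n) (a : Fin n → F) : Matrix.symplecticGroup (Fin n) F :=
  ⟨fromBlocks 1 (symS i₀ a) 0 1, by
    rw [SymplecticGroup.mem_iff, Matrix.J, fromBlocks_transpose, fromBlocks_multiply,
      fromBlocks_multiply]
    simp [symS_transpose]⟩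

theorem uSp_coe (i₀ : Fin n) (a : Fin n → F) :
    (uSp i₀ a : Matrix (Fin n ⊕ Fin n) (Fin n ⊕ Fin n) F) = fromBlocks 1 (symS i₀ a) 0 1 := rfl

theorem uSp_add (i₀ : Fin n) (a b : Fin n → F) : uSp i₀ (a + b) = uSp i₀ a * uSp i₀ b := by
  apply Subtype.ext
  rw [Submonoid.coe_mul, uSp_coe, uSp_coe, uSp_coe, fromBlocks_multiply, symS_add]
  simp [add_comm]

/-- The Levi elements `[A, 0; 0, A⁻ᵀ]`. -/
def gSp (A B : Matrix (Fin n) (Fin n) F) (hAB : A * B = 1) : Matrix.symplecticGroup (Fin n) F :=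
  ⟨fromBlocks A 0 0 Bᵀ, by
    rw [SymplecticGroup.mem_iff, Matrix.J, fromBlocks_transpose, fromBlocks_multiply,
      fromBlocks_multiply]
    simp [← transpose_mul, hAB]⟩

theorem gSp_coe (A B : Matrix (Fin n) (Fin n) F) (hAB : A * B = 1) :
    (gSp A B hAB : Matrix (Fin n ⊕ Fin n) (Fin n ⊕ Fin n) F) = fromBlocks A 0 0 Bᵀ := rfl

theorem gSp_conj (i₀ : Fin n) (A B : Matrix (Fin n) (Fin n) F) (hAB : A * B = 1) (hBA : B * A = 1)
    (c : F) (hc : c ≠ 0) (hA : A *ᵥ (Pi.single i₀ 1) = c • (Pi.single i₀ 1 : Fin n → F))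
    (a : Fin n → F) :
    gSp A B hAB * uSp i₀ a * (gSp A B hAB)⁻¹ = uSp i₀ (c • A *ᵥ a) := by
  rw [mul_inv_eq_iff_eq_mul]
  apply Subtype.ext
  rw [Submonoid.coe_mul, Submonoid.coe_mul, gSp_coe, uSp_coe, uSp_coe, fromBlocks_multiply,
    fromBlocks_multiply]
  have hB : B *ᵥ (Pi.single i₀ 1) = c⁻¹ • (Pi.single i₀ 1 : Fin n → F) := by
    have h1 : B *ᵥ (A *ᵥ (Pi.single i₀ 1 : Fin n → F)) = Pi.single i₀ 1 := by
      rw [mulVec_mulVec, hBA, one_mulVec]
    rw [hA, mulVec_smul] at h1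
    calc B *ᵥ (Pi.single i₀ 1 : Fin n → F)
        = c⁻¹ • (c • B *ᵥ (Pi.single i₀ 1 : Fin n → F)) := by
          rw [smul_smul, inv_mul_cancel₀ hc, one_smul]
      _ = c⁻¹ • (Pi.single i₀ 1 : Fin n → F) := by rw [h1]
  have key : A * symS i₀ a = symS i₀ (c • A *ᵥ a) * Bᵀ := by
    unfold symS
    rw [Matrix.mul_add, mul_vecMulVec, mul_vecMulVec, hA, Matrix.add_mul, vecMulVec_mul,
      vecMulVec_mul, vecMul_transpose, vecMul_transpose, hB, mulVec_smul, mulVec_mulVec, hBA,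
      one_mulVec, smul_vecMulVec, vecMulVec_smul, vecMulVec_smul, smul_vecMulVec, smul_smul,
      inv_mul_cancel₀ hc, one_smul]
  simp only [Matrix.one_mul, Matrix.mul_one, Matrix.zero_mul, Matrix.mul_zero, add_zero, zero_add]
  rw [key]

theorem uSp_not_mem_center (i₀ : Fin n) (a : Fin n → F) (ha : symS i₀ a ≠ 0) :
    uSp i₀ a ∉ Subgroup.center (Matrix.symplecticGroup (Fin n) F) := by
  intro h
  rw [Subgroup.mem_center_iff] at h
  have h1 := congrArg (fun x : Matrix.symplecticGroup (Fin n) F =>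
    (x : Matrix (Fin n ⊕ Fin n) (Fin n ⊕ Fin n) F)) (h (SymplecticGroup.symJ (Fin n) F))
  simp only [Submonoid.coe_mul, SymplecticGroup.coe_J, uSp_coe, Matrix.J,
    fromBlocks_multiply] at h1
  have h2 := (Matrix.fromBlocks_inj.mp h1).1
  apply ha
  simpa using h2.symm

end SpLS

end Cfsg.Agent.H45
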