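import Mathlib

set_option autoImplicit false

namespace Cfsg.Agent.H45

/-- An injective hom from the cyclic group of order `m` into a finite cyclic group whose
order is divisible by `m`. -/
theorem exists_injective_hom_zmod {H : Type*} [Group H] [Finite H] [IsCyclic H] (m : ℕ)
    (hm : m ∣ Nat.card H) :
    ∃ f : Multiplicative (ZMod m) →* H, Function.Injective f := by
  obtain ⟨g, hg⟩ := IsCyclic.exists_generator (α := H)
  have hord : orderOf g = Nat.card H := orderOf_eq_card_of_forall_mem_zpowers hg
  have hcard : Nat.card H ≠ 0 := Nat.card_pos.ne'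
  have hh : orderOf (g ^ (Nat.card H / m)) = m := by
    rw [← hord]
    exact orderOf_pow_orderOf_div (by rw [hord]; exact hcard) (hord ▸ hm)
  have key : ∀ m', m' = Nat.card (Subgroup.zpowers (g ^ (Nat.card H / m))) →
      ∃ f : Multiplicative (ZMod m') →* H, Function.Injective f := by
    rintro _ rfl
    exact ⟨(Subgroup.zpowers (g ^ (Nat.card H / m))).subtype.comp
      (zmodCyclicMulEquiv (inferInstance : IsCyclic (Subgroup.zpowers (g ^ (Nat.card H / m))))).toMonoidHom,
      (Subgroup.subtype_injective _).comp (MulEquiv.injective _)⟩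
  exact key m (by rw [Nat.card_zpowers, hh])

/-- A torus `(C_m)^a ≤ GL_n(q)` for `m ∣ q^d - 1` and `a d ≤ n`. -/
theorem exists_injective_hom_GL (F : Type*) [Field F] [Fintype F] (n d a m : ℕ) (hd : 0 < d)
    (had : a * d ≤ n) (hm : m ∣ Fintype.card F ^ d - 1) :
    ∃ φ : (Fin a → Multiplicative (ZMod m)) →* GL (Fin n) F, Function.Injective φ := by
  classical
  obtain ⟨p, hp⟩ := CharP.exists F
  have : Fact p.Prime := ⟨CharP.char_is_prime F p⟩
  have : NeZero d := ⟨hd.ne'⟩
  have hK : Nat.card (FiniteField.Extension F p d)ˣ = Fintype.card F ^ d - 1 := by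
    rw [Nat.card_units, FiniteField.natCard_extension, Nat.card_eq_fintype_card]
  obtain ⟨ι, hι⟩ := exists_injective_hom_zmod (H := (FiniteField.Extension F p d)ˣ) m (hK ▸ hm)
  have hV : Module.finrank F ((Fin a → FiniteField.Extension F p d) × (Fin (n - a * d) → F)) = n := by
    rw [Module.finrank_prod, Module.finrank_pi_fintype, Module.finrank_fin_fun]
    simp only [FiniteField.finrank_extension, Finset.sum_const, Finset.card_univ, Fintype.card_fin,
      smul_eq_mul]
    omega
  let b := Module.finBasisOfFinrankEq F _ hV
  let μ : (Fin a → FiniteField.Extension F p d) →*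
      Module.End F ((Fin a → FiniteField.Extension F p d) × (Fin (n - a * d) → F)) :=
    { toFun := fun c =>
        { toFun := fun v => (c * v.1, v.2)
          map_add' := fun v w => by simp [mul_add]
          map_smul' := fun t v => by simp }
      map_one' := by
        apply LinearMap.ext
        intro v
        simp
      map_mul' := fun c c' => by
        apply LinearMap.ext
        intro v
        simp [mul_assoc] }
  have hμ : Function.Injective μ := by
    intro c c' h
    have := congrArg (fun f : Module.End F ((Fin a → FiniteField.Extension F p d) × (Fin (n - a * d) → F)) =>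
      (f (1, 0)).1) h
    simpa [μ] using this
  let Φ : (Fin a → FiniteField.Extension F p d) →* Matrix (Fin n) (Fin n) F :=
    ((LinearMap.toMatrixAlgEquiv b : Module.End F _ ≃ₐ[F] Matrix (Fin n) (Fin n) F) :
      Module.End F _ →* Matrix (Fin n) (Fin n) F).comp μ
  have hΦ : Function.Injective Φ := by
    intro x y h
    apply hμ
    exact (LinearMap.toMatrixAlgEquiv b).injective h
  refine ⟨(Units.map Φ).comp ((MulEquiv.piUnits (M := fun _ : Fin a => FiniteField.Extension F p d)).symm.toMonoidHom.comp
    (MonoidHom.compLeft ι (Fin a))), ?_⟩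
  intro x y hxy
  have h1 := Units.map_injective hΦ hxy
  have h2 := (MulEquiv.piUnits (M := fun _ : Fin a => FiniteField.Extension F p d)).symm.injective h1
  funext i
  exact hι (congrFun h2 i)

end Cfsg.Agent.H45
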