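import Mathlib
import Cfsg.Agent.H45.GLOrder
import Cfsg.Agent.H45.Torus
import Cfsg.Agent.H50.SpExt
import Cfsg.Agent.H17.SpBlock
import Cfsg.Agent.H7.SUCenter
import Cfsg.Agent.S0778
import Cfsg.Agent.S2639

/-!
# Tori in `Sp_{2n}(q)` and the `r`-part of its order (for `r > n` odd)
-/

set_option autoImplicit false

namespace Cfsg.Agent.H45

open Matrix

section SpOrder

variable (q r : ℕ) [Fact r.Prime]

/-- For `r ∤ t`: `v_r(q^(d t) - 1) = v_r(q^d - 1)` whenever `r ∣ q^d - 1`. -/
theorem factorization_pow_mul_sub_one' (hrq : ¬ r ∣ q) (d t : ℕ) (hd : r ∣ q ^ d - 1)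
    (ht : ¬ r ∣ t) :
    (q ^ (d * t) - 1).factorization r = (q ^ d - 1).factorization r := by
  have hr : r.Prime := Fact.out
  have hq := q_pos_of_not_dvd q r hrq
  have h1 : 1 ≤ q ^ d := Nat.one_le_pow _ _ hq
  have hgeom := geom_sum_mul_of_one_le h1 t
  rw [← pow_mul] at hgeom
  by_cases hd0 : q ^ d - 1 = 0
  · have : q ^ (d * t) - 1 = 0 := by rw [← hgeom, hd0, mul_zero]
    rw [this, hd0]
  have hsum : ¬ r ∣ ∑ i ∈ Finset.range t, (q ^ d) ^ i := by
    rw [← ZMod.natCast_eq_zero_iff]
    push_cast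
    have hqd : ((q : ZMod r)) ^ d = 1 := by
      have := (dvd_pow_sub_one_iff q r hrq d).mp hd
      exact orderOf_dvd_iff_pow_eq_one.mp this
    rw [hqd]
    simp only [one_pow, Finset.sum_const, Finset.card_range, nsmul_eq_mul, mul_one]
    rw [ZMod.natCast_eq_zero_iff]
    exact ht
  have hsum0 : ∑ i ∈ Finset.range t, (q ^ d) ^ i ≠ 0 := by
    intro h; rw [h] at hsum; exact hsum (dvd_zero r)
  rw [← hgeom, Nat.factorization_mul hsum0 hd0, Finsupp.add_apply,
    Nat.factorization_eq_zero_of_not_dvd hsum, zero_add]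

/-- `v_r(q^(2i) - 1)` for `1 ≤ i < r`, `r` odd. -/
theorem factorization_pow_two_mul_sub_one (hr2 : r ≠ 2) (hrq : ¬ r ∣ q) (i : ℕ) (hi0 : 0 < i)
    (hir : i < r) :
    (q ^ (2 * i) - 1).factorization r =
      if orderOf (q : ZMod r) ∣ 2 * i then
        padicValNat r ((Polynomial.cyclotomic (orderOf (q : ZMod r)) ℤ).eval (q : ℤ)).natAbs
      else 0 := by
  have hr : r.Prime := Fact.out
  split_ifs with h
  · obtain ⟨t, ht⟩ := h
    have hrt : ¬ r ∣ t := by
      intro hdvd
      have h1 : r ∣ 2 * i := ht ▸ Dvd.dvd.mul_left hdvd _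
      rcases (hr.dvd_mul).mp h1 with h2 | h2
      · exact hr2 ((Nat.prime_dvd_prime_iff_eq hr Nat.prime_two).mp h2)
      · have := Nat.le_of_dvd hi0 h2
        omega
    rw [ht, factorization_pow_mul_sub_one' q r hrq _ t
      ((dvd_pow_sub_one_iff q r hrq _).mpr dvd_rfl) hrt, factorization_pow_order_sub_one q r hrq]
  · apply Nat.factorization_eq_zero_of_not_dvd
    rwa [dvd_pow_sub_one_iff q r hrq]

/-- The `r`-part of `|Sp_{2n}(q)|` for an odd prime `r > n`, `r ∤ q`. -/
theorem factorization_card_Sp (hq2 : 2 ≤ q) (n : ℕ) (hr2 : r ≠ 2) (hrn : n < r) (hrq : ¬ r ∣ q) :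
    (q ^ (n ^ 2) * ∏ i ∈ Finset.range n, (q ^ (2 * (i + 1)) - 1)).factorization r =
      ((Finset.Icc 1 n).filter (fun i => orderOf (q : ZMod r) ∣ 2 * i)).card *
        padicValNat r ((Polynomial.cyclotomic (orderOf (q : ZMod r)) ℤ).eval (q : ℤ)).natAbs := by
  have hr : r.Prime := Fact.out
  set d := orderOf (q : ZMod r) with hd
  set s := padicValNat r ((Polynomial.cyclotomic d ℤ).eval (q : ℤ)).natAbs with hs
  have hpos : ∀ i ∈ Finset.range n, q ^ (2 * (i + 1)) - 1 ≠ 0 := by
    intro i _
    have : q ^ 1 ≤ q ^ (2 * (i + 1)) := Nat.pow_le_pow_right (by omega) (by omega)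
    rw [pow_one] at this
    omega
  have hprod0 : ∏ i ∈ Finset.range n, (q ^ (2 * (i + 1)) - 1) ≠ 0 :=
    Finset.prod_ne_zero_iff.mpr hpos
  rw [Nat.factorization_mul (pow_ne_zero _ (by omega)) hprod0, Finsupp.add_apply,
    Nat.factorization_eq_zero_of_not_dvd (fun h => hrq (hr.dvd_of_dvd_pow h)), zero_add,
    Nat.factorization_prod hpos, Finsupp.finsetSum_apply]
  have hval : ∀ i ∈ Finset.range n, (q ^ (2 * (i + 1)) - 1).factorization r =
      if d ∣ 2 * (i + 1) then s else 0 := by
    intro i hi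
    rw [Finset.mem_range] at hi
    exact factorization_pow_two_mul_sub_one q r hr2 hrq (i + 1) (by omega) (by omega)
  rw [Finset.sum_congr rfl hval, Finset.sum_ite, Finset.sum_const_zero, add_zero, Finset.sum_const,
    smul_eq_mul]
  congr 1
  apply Finset.card_bij (fun i _ => i + 1)
  · intro i hi
    rw [Finset.mem_filter, Finset.mem_range] at hi
    rw [Finset.mem_filter, Finset.mem_Icc]
    exact ⟨⟨by omega, by omega⟩, hi.2⟩
  · intro i _ j _ hij
    omega
  · intro j hj
    rw [Finset.mem_filter, Finset.mem_Icc] at hj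
    refine ⟨j - 1, ?_, by omega⟩
    rw [Finset.mem_filter, Finset.mem_range]
    refine ⟨by omega, ?_⟩
    have : j - 1 + 1 = j := by omega
    rw [this]
    exact hj.2

end SpOrder

theorem card_filter_Icc_dvd (n c : ℕ) : ((Finset.Icc 1 n).filter (fun i => c ∣ i)).card = n / c := by
  rw [← Nat.Ioc_filter_dvd_card_eq_div]
  congr 1

section SpTorus

/-- A torus `(C_m)^a ≤ GL_n(q) ≤ Sp_{2n}(q)` for `m ∣ q^d - 1` and `a d ≤ n`. -/
theorem exists_injective_hom_Sp_odd (F : Type*) [Field F] [Fintype F] (n d a m : ℕ) (hd : 0 < d)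
    (had : a * d ≤ n) (hm : m ∣ Fintype.card F ^ d - 1) :
    ∃ φ : (Fin a → Multiplicative (ZMod m)) →* ↥(Matrix.symplecticGroup (Fin n) F),
      Function.Injective φ := by
  obtain ⟨φ, hφ⟩ := exists_injective_hom_GL F n d a m hd had hm
  exact ⟨(Cfsg.Agent.S0778.leviHom n).comp φ, (Cfsg.Agent.S0778.leviHom_injective n).comp hφ⟩

/-- A torus `(C_m)^a ≤ GU_a(q^e) ≤ Sp_{2a}(q^e) ≤ Sp_{2ae}(q) ≤ Sp_{2n}(q)` for `m ∣ q^e + 1`
and `a e ≤ n`. -/
theorem exists_injective_hom_Sp_even (F : Type*) [Field F] [Fintype F] (n e a m : ℕ) (he : 0 < e)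
    (hae : a * e ≤ n) (hm : m ∣ Fintype.card F ^ e + 1) :
    ∃ φ : (Fin a → Multiplicative (ZMod m)) →* ↥(Matrix.symplecticGroup (Fin n) F),
      Function.Injective φ := by
  classical
  obtain ⟨p, hp⟩ := CharP.exists F
  have : Fact p.Prime := ⟨CharP.char_is_prime F p⟩
  have : NeZero e := ⟨he.ne'⟩
  have : CharP (FiniteField.Extension F p e) p :=
    charP_of_injective_algebraMap (algebraMap F (FiniteField.Extension F p e)).injective p
  let _ : Fintype (FiniteField.Extension F p e) := Fintype.ofFinite _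
  let _ : Fintype (FiniteField.Extension (FiniteField.Extension F p e) p 2) := Fintype.ofFinite _
  have hK₀ : Fintype.card (FiniteField.Extension F p e) = Fintype.card F ^ e := by
    rw [← Nat.card_eq_fintype_card, FiniteField.natCard_extension, Nat.card_eq_fintype_card]
  have hK : Fintype.card (FiniteField.Extension (FiniteField.Extension F p e) p 2) =
      (Fintype.card F ^ e) ^ 2 := by
    rw [← Nat.card_eq_fintype_card, FiniteField.natCard_extension, Nat.card_eq_fintype_card, hK₀]
  obtain ⟨Q, hQ⟩ : ∃ Q, Fintype.card F ^ e = Q := ⟨_, rfl⟩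
  rw [hQ] at hK₀ hK hm
  have hQ1 : 1 ≤ Q := by
    rw [← hQ]
    exact Nat.one_le_pow _ _ Fintype.card_pos
  -- step 1: the cyclic group of order `m` inside the norm-one elements
  have hKu : Nat.card (FiniteField.Extension (FiniteField.Extension F p e) p 2)ˣ = Q ^ 2 - 1 := by
    rw [Nat.card_units, Nat.card_eq_fintype_card, hK]
  have hm2 : m ∣ Nat.card (FiniteField.Extension (FiniteField.Extension F p e) p 2)ˣ := by
    rw [hKu]
    have h1 : Q ^ 2 - 1 = (Q + 1) * (Q - 1) := by
      obtain ⟨Q', rfl⟩ : ∃ Q', Q = Q' + 1 := ⟨Q - 1, by omega⟩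
      rw [Nat.add_sub_cancel]
      apply Nat.sub_eq_of_eq_add
      ring
    rw [h1]
    exact Dvd.dvd.mul_right hm _
  obtain ⟨ι, hι⟩ := exists_injective_hom_zmod
    (H := (FiniteField.Extension (FiniteField.Extension F p e) p 2)ˣ) m hm2
  have hm0 : m ≠ 0 := by
    rintro rfl
    rw [zero_dvd_iff] at hm
    omega
  have : NeZero m := ⟨hm0⟩
  have hι1 : ∀ y : Multiplicative (ZMod m),
      ((ι y : (FiniteField.Extension (FiniteField.Extension F p e) p 2)ˣ) :
        FiniteField.Extension (FiniteField.Extension F p e) p 2) ^ (Q + 1) = 1 := by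
    intro y
    have h1 : y ^ m = 1 := by
      have h2 : Nat.card (Multiplicative (ZMod m)) = m :=
        (Nat.card_congr Multiplicative.toAdd).trans (Nat.card_zmod m)
      have h3 := pow_card_eq_one' (G := Multiplicative (ZMod m)) (x := y)
      rwa [h2] at h3
    obtain ⟨c, hc⟩ := hm
    have h2 : (ι y) ^ m = 1 := by rw [← map_pow, h1, map_one]
    rw [← Units.val_pow_eq_pow_val, hc, pow_mul, h2, one_pow, Units.val_one]
  -- step 2: the diagonal torus of `GU_a`
  let D : (Fin a → Multiplicative (ZMod m)) →*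
      GL (Fin a) (FiniteField.Extension (FiniteField.Extension F p e) p 2) :=
    (Units.map (Matrix.diagonalRingHom (Fin a)
      (FiniteField.Extension (FiniteField.Extension F p e) p 2)).toMonoidHom).comp
      ((MulEquiv.piUnits (M := fun _ : Fin a =>
        FiniteField.Extension (FiniteField.Extension F p e) p 2)).symm.toMonoidHom.comp
        (MonoidHom.compLeft ι (Fin a)))
  have hDval : ∀ x, ((D x : GL (Fin a) (FiniteField.Extension (FiniteField.Extension F p e) p 2)) :
      Matrix (Fin a) (Fin a) (FiniteField.Extension (FiniteField.Extension F p e) p 2)) =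
      Matrix.diagonal (fun i => ((ι (x i) : (FiniteField.Extension (FiniteField.Extension F p e) p 2)ˣ) :
        FiniteField.Extension (FiniteField.Extension F p e) p 2)) := by
    intro x
    rfl
  have hDmem : ∀ x, D x ∈ Cfsg.GU a (FiniteField.Extension (FiniteField.Extension F p e) p 2) Q := by
    intro x u v
    show Cfsg.hermForm a _ Q
      (((D x : GL (Fin a) (FiniteField.Extension (FiniteField.Extension F p e) p 2)) :
        Matrix (Fin a) (Fin a) (FiniteField.Extension (FiniteField.Extension F p e) p 2)) *ᵥ u)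
      (((D x : GL (Fin a) (FiniteField.Extension (FiniteField.Extension F p e) p 2)) :
        Matrix (Fin a) (Fin a) (FiniteField.Extension (FiniteField.Extension F p e) p 2)) *ᵥ v) = _
    rw [hDval]
    exact Cfsg.Agent.H7.diag_preserves_herm a Q _ (fun k => hι1 _) u v
  have hDinj : Function.Injective D := by
    intro x y hxy
    have h1 : ((D x : GL (Fin a) (FiniteField.Extension (FiniteField.Extension F p e) p 2)) :
        Matrix (Fin a) (Fin a) (FiniteField.Extension (FiniteField.Extension F p e) p 2)) =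
        ((D y : GL (Fin a) (FiniteField.Extension (FiniteField.Extension F p e) p 2)) :
        Matrix (Fin a) (Fin a) (FiniteField.Extension (FiniteField.Extension F p e) p 2)) := by
      rw [hxy]
    rw [hDval, hDval] at h1
    funext i
    apply hι
    apply Units.ext
    have h2 := congrFun (congrFun h1 i) i
    rwa [Matrix.diagonal_apply_eq, Matrix.diagonal_apply_eq] at h2
  have hτ : Function.Injective (D.codRestrict _ hDmem) :=
    fun x y h => hDinj (congrArg Subtype.val h)
  -- step 3: `GU_a(Q) → Sp_{2a}(Q)`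
  obtain ⟨φ₁, hφ₁⟩ := Cfsg.Agent.S2639.result
    (K := FiniteField.Extension (FiniteField.Extension F p e) p 2)
    (F := FiniteField.Extension F p e) hK hK₀ a
  -- step 4: `Sp_{2a}(Q) → Sp_{2ae}(q)`
  have hfr : Module.finrank F (FiniteField.Extension F p e) = e :=
    FiniteField.finrank_extension F p e
  have hφ₂ := Cfsg.Agent.H50.SpExt.spHom_injective
    (Module.finBasisOfFinrankEq F (FiniteField.Extension F p e) hfr) (Fin a)
  -- step 5: reindexing
  have hφ₃ := Cfsg.Agent.H50.SpExt.spReindex_injective (R := F)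
    (finProdFinEquiv : Fin a × Fin e ≃ Fin (a * e))
  -- step 6: block embedding
  have hφ₄ : Function.Injective ((Cfsg.Agent.H17.spBlockHom (F := F) n (a * e) hae).comp
      (MonoidHom.inl _ _)) := by
    intro x y hxy
    have := Cfsg.Agent.H17.spBlockHom_injective (F := F) n (a * e) hae hxy
    exact congrArg Prod.fst this
  refine ⟨((Cfsg.Agent.H17.spBlockHom (F := F) n (a * e) hae).comp (MonoidHom.inl _ _)).comp
    ((Cfsg.Agent.H50.SpExt.spReindex (R := F)
        (finProdFinEquiv : Fin a × Fin e ≃ Fin (a * e))).comp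
      ((Cfsg.Agent.H50.SpExt.spHom
          (Module.finBasisOfFinrankEq F (FiniteField.Extension F p e) hfr) (Fin a)).comp
        (φ₁.comp (D.codRestrict _ hDmem)))), ?_⟩
  exact hφ₄.comp (hφ₃.comp (hφ₂.comp (hφ₁.comp hτ)))

end SpTorus

end Cfsg.Agent.H45
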