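import Mathlib
import Cfsg.Agent.H77.UfDefs

/-! UF-COUNT for helper77's S2149 project (helper45): definitions shared by the chunk files. -/

set_option autoImplicit false

namespace Cfsg.Agent.H45.UfC

open Matrix Cfsg.Agent.H77.Uf

/-- the predicate of `StCount` -/
def P (x : F25 × F25 × F25) : Prop :=
  det3 (T3 x) = 1 ∧ (T3 x)ᵀ * (T3 x).map (fun y => y ^ 5) = 1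

instance instDecP (x : F25 × F25 × F25) : Decidable (P x) := by unfold P; infer_instance

/-- the 21 solutions -/
def L : List (F25 × F25 × F25) :=
  [(⟨0, 0⟩, ⟨0, 0⟩, ⟨1, 0⟩),
   (⟨0, 0⟩, ⟨0, 0⟩, ⟨2, 2⟩),
   (⟨0, 0⟩, ⟨0, 0⟩, ⟨2, 3⟩),
   (⟨0, 0⟩, ⟨1, 0⟩, ⟨0, 0⟩),
   (⟨0, 0⟩, ⟨2, 2⟩, ⟨0, 0⟩),
   (⟨0, 0⟩, ⟨2, 3⟩, ⟨0, 0⟩),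
   (⟨1, 0⟩, ⟨0, 0⟩, ⟨0, 0⟩),
   (⟨1, 0⟩, ⟨3, 1⟩, ⟨2, 1⟩),
   (⟨4, 0⟩, ⟨4, 0⟩, ⟨2, 4⟩),
   (⟨2, 1⟩, ⟨4, 0⟩, ⟨4, 0⟩),
   (⟨3, 1⟩, ⟨3, 3⟩, ⟨3, 3⟩),
   (⟨0, 2⟩, ⟨2, 4⟩, ⟨2, 2⟩),
   (⟨2, 2⟩, ⟨0, 0⟩, ⟨0, 0⟩),
   (⟨2, 2⟩, ⟨0, 3⟩, ⟨3, 1⟩),
   (⟨3, 2⟩, ⟨3, 2⟩, ⟨3, 4⟩),
   (⟨0, 3⟩, ⟨3, 2⟩, ⟨3, 2⟩),
   (⟨2, 3⟩, ⟨0, 0⟩, ⟨0, 0⟩),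
   (⟨2, 3⟩, ⟨2, 1⟩, ⟨0, 3⟩),
   (⟨3, 3⟩, ⟨3, 3⟩, ⟨0, 2⟩),
   (⟨2, 4⟩, ⟨3, 4⟩, ⟨1, 0⟩),
   (⟨3, 4⟩, ⟨0, 2⟩, ⟨2, 3⟩)]

end Cfsg.Agent.H45.UfC
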