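import Mathlib
import Cfsg.Agent.H45.UfCountDefs

/-! UF-COUNT for helper77's S2149 project (helper45): chunks with first coordinate `⟨3, b⟩`
(each chunk is a kernel-checked enumeration of 625 triples). -/

set_option autoImplicit false

namespace Cfsg.Agent.H45.UfC

open Matrix Cfsg.Agent.H77.Uf

set_option maxRecDepth 100000 in
theorem chunk_3_0 : ∀ y : F25 × F25, P (⟨3, 0⟩, y) → (⟨3, 0⟩, y) ∈ L := by decide +kernel

set_option maxRecDepth 100000 in
theorem chunk_3_1 : ∀ y : F25 × F25, P (⟨3, 1⟩, y) → (⟨3, 1⟩, y) ∈ L := by decide +kernel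

set_option maxRecDepth 100000 in
theorem chunk_3_2 : ∀ y : F25 × F25, P (⟨3, 2⟩, y) → (⟨3, 2⟩, y) ∈ L := by decide +kernel

set_option maxRecDepth 100000 in
theorem chunk_3_3 : ∀ y : F25 × F25, P (⟨3, 3⟩, y) → (⟨3, 3⟩, y) ∈ L := by decide +kernel

set_option maxRecDepth 100000 in
theorem chunk_3_4 : ∀ y : F25 × F25, P (⟨3, 4⟩, y) → (⟨3, 4⟩, y) ∈ L := by decide +kernel

end Cfsg.Agent.H45.UfC
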