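import Mathlib
import Cfsg.Agent.H45.UfCountDefs
import Cfsg.Agent.H45.UfCount0
import Cfsg.Agent.H45.UfCount1
import Cfsg.Agent.H45.UfCount2
import Cfsg.Agent.H45.UfCount3
import Cfsg.Agent.H45.UfCount4

/-! UF-COUNT for helper77's S2149 project (helper45): at most 21 elements of `F25[B7]` are unitary
of determinant 1 (assembled from the 25 chunks `chunk_a_b`). -/

set_option autoImplicit false

namespace Cfsg.Agent.H45.UfC

open Matrix Cfsg.Agent.H77.Uf

theorem zmod5_cases (a : ZMod 5) : a = 0 ∨ a = 1 ∨ a = 2 ∨ a = 3 ∨ a = 4 := by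
  revert a; decide

theorem mem_L_of_P (x : F25 × F25 × F25) (h : P x) : x ∈ L := by
  obtain ⟨⟨a, b⟩, y⟩ := x
  rcases zmod5_cases a with rfl | rfl | rfl | rfl | rfl <;>
    rcases zmod5_cases b with rfl | rfl | rfl | rfl | rfl
  · exact chunk_0_0 y h
  · exact chunk_0_1 y h
  · exact chunk_0_2 y h
  · exact chunk_0_3 y h
  · exact chunk_0_4 y h
  · exact chunk_1_0 y h
  · exact chunk_1_1 y h
  · exact chunk_1_2 y h
  · exact chunk_1_3 y h
  · exact chunk_1_4 y h
  · exact chunk_2_0 y h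
  · exact chunk_2_1 y h
  · exact chunk_2_2 y h
  · exact chunk_2_3 y h
  · exact chunk_2_4 y h
  · exact chunk_3_0 y h
  · exact chunk_3_1 y h
  · exact chunk_3_2 y h
  · exact chunk_3_3 y h
  · exact chunk_3_4 y h
  · exact chunk_4_0 y h
  · exact chunk_4_1 y h
  · exact chunk_4_2 y h
  · exact chunk_4_3 y h
  · exact chunk_4_4 y h

theorem count : StCount := by
  unfold StCount
  have hsub : (Finset.univ.filter (fun x : F25 × F25 × F25 =>
      det3 (T3 x) = 1 ∧ (T3 x)ᵀ * (T3 x).map (fun y => y ^ 5) = 1)) ⊆ L.toFinset := by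
    intro x hx
    rw [Finset.mem_filter] at hx
    rw [List.mem_toFinset]
    exact mem_L_of_P x hx.2
  exact (Finset.card_le_card hsub).trans (List.toFinset_card_le L)

end Cfsg.Agent.H45.UfC

example : Cfsg.Agent.H77.Uf.StCount := Cfsg.Agent.H45.UfC.count
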