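import Mathlib
import Cfsg.Agent.H45.Semisimple

/-!
# Eigenvalue symmetry for unitary matrices

For a matrix `B` over an algebraically closed field with `Bᵀ * B^φ = 1` (`φ` a ring endomorphism),
the root multiplicities of the characteristic polynomial are invariant under `μ ↦ (φ μ)⁻¹`.
Consequence: elements of prime order `r` of a unitary group with `r` not dividing `q^k - (-1)^k`
for `k ≤ m - 2` are regular, hence commute with no non-trivial unipotent matrix.
-/

set_option autoImplicit false

namespace Cfsg.Agent.H45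

open Matrix Polynomial

section UnitaryEig

variable {L : Type*} [Field L]

/-- Root multiplicities of the characteristic polynomial of the inverse matrix. -/
theorem rootMultiplicity_charpoly_of_mul_eq_one {m : ℕ} (B C : Matrix (Fin m) (Fin m) L)
    (hBC : B * C = 1) (μ : L) (hμ : μ ≠ 0) :
    C.charpoly.rootMultiplicity μ = B.charpoly.rootMultiplicity μ⁻¹ := by
  have hCB : C * B = 1 := mul_eq_one_comm.mp hBC
  have hfg : Matrix.toLin' C * Matrix.toLin' B = 1 := by
    rw [Module.End.mul_eq_comp, ← Matrix.toLin'_mul, hCB, Matrix.toLin'_one]; rfl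
  have hgf : Matrix.toLin' B * Matrix.toLin' C = 1 := by
    rw [Module.End.mul_eq_comp, ← Matrix.toLin'_mul, hBC, Matrix.toLin'_one]; rfl
  set f : Module.End L (Fin m → L) := Matrix.toLin' C with hf
  set g : Module.End L (Fin m → L) := Matrix.toLin' B with hg
  have hcomm : Commute f g := by
    show f * g = g * f
    rw [hfg, hgf]
  have hkey : f - μ • 1 = ((-μ) • f) * (g - μ⁻¹ • 1) := by
    rw [mul_sub, smul_mul_assoc, hfg, smul_mul_assoc, mul_smul_comm, mul_one, smul_smul,
      neg_mul, mul_inv_cancel₀ hμ]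
    module
  have hcomm2 : Commute ((-μ) • f) (g - μ⁻¹ • 1) := by
    apply Commute.sub_right
    · exact (hcomm.smul_left _)
    · exact (Commute.one_right _).smul_right _
  have hunit : ((-μ)⁻¹ • g) * ((-μ) • f) = 1 := by
    rw [smul_mul_assoc, mul_smul_comm, hgf, smul_smul, inv_mul_cancel₀ (neg_ne_zero.mpr hμ),
      one_smul]
  have hcomm3 : Commute ((-μ)⁻¹ • g) ((-μ) • f) := (hcomm.symm.smul_left _).smul_right _
  have hunitk : ∀ k : ℕ, (((-μ)⁻¹ • g) ^ k) * (((-μ) • f) ^ k) = 1 := by
    intro k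
    rw [← hcomm3.mul_pow, hunit, one_pow]
  have hE : Module.End.maxGenEigenspace f μ = Module.End.maxGenEigenspace g μ⁻¹ := by
    ext v
    rw [Module.End.mem_maxGenEigenspace, Module.End.mem_maxGenEigenspace]
    constructor
    · rintro ⟨k, hk⟩
      refine ⟨k, ?_⟩
      rw [hkey, hcomm2.mul_pow, Module.End.mul_apply] at hk
      have h2 := congrArg (fun w => (((-μ)⁻¹ • g) ^ k) w) hk
      simp only [map_zero] at h2
      rw [← Module.End.mul_apply, hunitk, Module.End.one_apply] at h2
      exact h2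
    · rintro ⟨k, hk⟩
      refine ⟨k, ?_⟩
      rw [hkey, hcomm2.mul_pow, Module.End.mul_apply, hk, map_zero]
  rw [← Matrix.charpoly_toLin' C, ← Matrix.charpoly_toLin' B, ← LinearMap.finrank_maxGenEigenspace_eq,
    ← LinearMap.finrank_maxGenEigenspace_eq, ← hf, ← hg, hE]

/-- Symmetry of the root multiplicities for a "unitary" matrix. -/
theorem rootMultiplicity_charpoly_unitary {m : ℕ} (φ : L →+* L) (B : Matrix (Fin m) (Fin m) L)
    (hB : Bᵀ * B.map φ = 1) (μ : L) :
    B.charpoly.rootMultiplicity (φ μ)⁻¹ = B.charpoly.rootMultiplicity μ := by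
  by_cases hμ : μ = 0
  · subst hμ
    simp
  have h1 := rootMultiplicity_charpoly_of_mul_eq_one Bᵀ (B.map φ) hB (φ μ)
    (by simpa using hμ)
  rw [Matrix.charpoly_transpose, Matrix.charpoly_map] at h1
  rw [← h1, ← Polynomial.eq_rootMultiplicity_map φ.injective]

/-- A counting lemma: if the root multiplicities of `χ` are invariant under `f`, and some root has an
`f`-orbit with at least `deg χ - 1` elements, then all roots of `χ` are simple. -/
theorem rootMultiplicity_le_one_of_orbit (χ : L[X]) (m : ℕ)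
    (hdeg : χ.natDegree = m) (hm : 3 ≤ m) (f : L → L)
    (hf : ∀ μ, χ.rootMultiplicity (f μ) = χ.rootMultiplicity μ)
    (μ₁ : L) (hμ₁ : 1 ≤ χ.rootMultiplicity μ₁)
    (hinj : Set.InjOn (fun i => f^[i] μ₁) (Finset.range (m - 1) : Set ℕ)) :
    ∀ μ, χ.rootMultiplicity μ ≤ 1 := by
  classical
  have hS : ∀ i, χ.rootMultiplicity (f^[i] μ₁) = χ.rootMultiplicity μ₁ := by
    intro i
    induction i with
    | zero => rfl
    | succ i ih => rw [Function.iterate_succ_apply', hf, ih]
  set S : Finset L := (Finset.range (m - 1)).image (fun i => f^[i] μ₁) with hSdef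
  have hScard : S.card = m - 1 := by
    rw [hSdef, Finset.card_image_of_injOn hinj, Finset.card_range]
  have hsum : ∀ T : Finset L, ∑ μ ∈ T, χ.rootMultiplicity μ ≤ m := by
    intro T
    have h1 : ∑ μ ∈ T, χ.rootMultiplicity μ = ∑ μ ∈ T.filter (· ∈ χ.roots), χ.roots.count μ := by
      rw [Finset.sum_filter]
      refine Finset.sum_congr rfl (fun μ _ => ?_)
      rw [Polynomial.count_roots]
      split_ifs with h
      · rfl
      · rw [← Polynomial.count_roots]
        exact Multiset.count_eq_zero_of_notMem h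
    have h2 : T.filter (· ∈ χ.roots) ⊆ χ.roots.toFinset := by
      intro μ hμ
      rw [Finset.mem_filter] at hμ
      exact Multiset.mem_toFinset.mpr hμ.2
    rw [h1]
    calc ∑ μ ∈ T.filter (· ∈ χ.roots), χ.roots.count μ
        ≤ ∑ μ ∈ χ.roots.toFinset, χ.roots.count μ :=
          Finset.sum_le_sum_of_subset h2
      _ = Multiset.card χ.roots := Multiset.toFinset_sum_count_eq _
      _ ≤ m := hdeg ▸ Polynomial.card_roots' χ
  have hSconst : ∀ μ ∈ S, χ.rootMultiplicity μ = χ.rootMultiplicity μ₁ := by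
    intro μ hμ
    rw [hSdef, Finset.mem_image] at hμ
    obtain ⟨i, -, rfl⟩ := hμ
    exact hS i
  have hSsum : ∑ μ ∈ S, χ.rootMultiplicity μ = (m - 1) * χ.rootMultiplicity μ₁ := by
    rw [Finset.sum_congr rfl hSconst, Finset.sum_const, hScard, smul_eq_mul]
  have hc : χ.rootMultiplicity μ₁ = 1 := by
    by_contra hne
    have h2 : 2 ≤ χ.rootMultiplicity μ₁ := by omega
    have h3 := hsum S
    rw [hSsum] at h3
    have h4 : (m - 1) * 2 ≤ (m - 1) * χ.rootMultiplicity μ₁ := Nat.mul_le_mul_left _ h2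
    omega
  intro μ
  by_cases hμS : μ ∈ S
  · rw [hSconst μ hμS, hc]
  · by_contra hne
    have h2 : 2 ≤ χ.rootMultiplicity μ := by omega
    have h3 := hsum (insert μ S)
    rw [Finset.sum_insert hμS, hSsum, hc] at h3
    omega

/-- Elements of prime order `r` of a unitary group in dimension `m` (over an algebraically closed
field) are regular when `r` divides none of `q^k - (-1)^k`, `1 ≤ k ≤ m - 2`. -/
theorem unitary_regular [IsAlgClosed L] (p : ℕ) [Fact p.Prime] [CharP L p] (j : ℕ)
    {m : ℕ} (hm : 3 ≤ m) (r : ℕ) [Fact r.Prime] (hrp : r ≠ p)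
    (B : Matrix (Fin m) (Fin m) L) (hB : Bᵀ * B.map (fun x => x ^ (p ^ j)) = 1) (hBr : B ^ r = 1)
    (hB1 : B ≠ 1)
    (hno : ∀ k, 1 ≤ k → k + 2 ≤ m →
      ¬ r ∣ (if Even k then (p ^ j) ^ k - 1 else (p ^ j) ^ k + 1)) :
    ∀ μ, B.charpoly.rootMultiplicity μ ≤ 1 := by
  classical
  have hp : p.Prime := Fact.out
  have hr : r.Prime := Fact.out
  have hpr : ¬ p ∣ r := fun h => hrp ((Nat.prime_dvd_prime_iff_eq hp hr).mp h).symm
  set φ : L →+* L := iterateFrobenius L p j with hφ
  have hφx : ∀ x : L, φ x = x ^ (p ^ j) := fun x => rfl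
  have hB' : Bᵀ * B.map φ = 1 := by
    rw [← hB]
    rfl
  set f : L → L := fun μ => (φ μ)⁻¹ with hfdef
  have hf : ∀ μ, B.charpoly.rootMultiplicity (f μ) = B.charpoly.rootMultiplicity μ :=
    fun μ => rootMultiplicity_charpoly_unitary φ B hB' μ
  set T : Module.End L (Fin m → L) := Matrix.toLin' B with hT
  have hTr : T ^ r = 1 := by
    rw [hT, ← Matrix.toLin'_pow, hBr, Matrix.toLin'_one]; rfl
  have hTch : T.charpoly = B.charpoly := Matrix.charpoly_toLin' B
  have hχ0 : B.charpoly ≠ 0 := (Matrix.charpoly_monic B).ne_zero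
  -- roots are `r`-th roots of unity
  have hroot : ∀ μ, 1 ≤ B.charpoly.rootMultiplicity μ → μ ^ r = 1 := by
    intro μ hμ
    have h1 : B.charpoly.IsRoot μ := (Polynomial.rootMultiplicity_pos hχ0).mp hμ
    rw [← hTch, ← Module.End.hasEigenvalue_iff_isRoot_charpoly] at h1
    obtain ⟨v, hv⟩ := h1.exists_hasEigenvector
    have h2 : ∀ k : ℕ, (T ^ k) v = μ ^ k • v := by
      intro k
      induction k with
      | zero => simp
      | succ k ih =>
        rw [pow_succ, Module.End.mul_apply, hv.apply_eq_smul, map_smul, ih, smul_smul, pow_succ,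
          mul_comm]
    have h3 := h2 r
    rw [hTr, Module.End.one_apply] at h3
    have h4 : (μ ^ r - 1) • v = 0 := by rw [sub_smul, one_smul, ← h3, sub_self]
    rcases smul_eq_zero.mp h4 with h5 | h5
    · exact sub_eq_zero.mp h5
    · exact absurd h5 hv.2
  -- there is a root different from `1`
  have hTss : T.IsSemisimple := isSemisimple_of_pow_eq_one p T r hpr hTr
  have hex : ∃ μ₁, μ₁ ≠ 1 ∧ 1 ≤ B.charpoly.rootMultiplicity μ₁ := by
    by_contra hcon
    push Not at hcon
    apply hB1
    have htop := hTss.iSup_eigenspace_eq_top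
    have h1 : ∀ μ, T.eigenspace μ ≤ T.eigenspace 1 := by
      intro μ
      by_cases hμ : μ = 1
      · rw [hμ]
      · have h2 : T.eigenspace μ = ⊥ := by
          by_contra hne
          have h3 : T.HasEigenvalue μ := hne
          rw [Module.End.hasEigenvalue_iff_isRoot_charpoly, hTch,
            ← Polynomial.rootMultiplicity_pos hχ0] at h3
          have := hcon μ hμ
          omega
        rw [h2]
        exact bot_le
    have h2 : T.eigenspace 1 = ⊤ := by
      rw [eq_top_iff, ← htop]
      exact iSup_le h1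
    have h3 : T = 1 := by
      apply LinearMap.ext
      intro v
      have hv : v ∈ T.eigenspace 1 := by rw [h2]; trivial
      rw [Module.End.mem_eigenspace_iff, one_smul] at hv
      rw [hv, Module.End.one_apply]
    apply Matrix.toLin'.injective
    rw [← hT, h3, Matrix.toLin'_one]; rfl
  obtain ⟨μ₁, hμ₁1, hμ₁⟩ := hex
  have hμ₁r : μ₁ ^ r = 1 := hroot μ₁ hμ₁
  have hord : orderOf μ₁ = r := orderOf_eq_prime hμ₁r hμ₁1
  have hμ₁0 : μ₁ ≠ 0 := by
    rintro rfl
    rw [zero_pow hr.ne_zero] at hμ₁r
    exact zero_ne_one hμ₁r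
  -- the iterates
  have hiter : ∀ k : ℕ, f^[k] μ₁ = if Even k then μ₁ ^ ((p ^ j) ^ k) else (μ₁ ^ ((p ^ j) ^ k))⁻¹ := by
    intro k
    induction k with
    | zero => simp
    | succ k ih =>
      rw [Function.iterate_succ_apply', ih]
      by_cases hk : Even k
      · have hk1 : ¬ Even (k + 1) := by rw [Nat.even_add_one]; exact not_not.mpr hk
        rw [if_pos hk, if_neg hk1, hfdef]
        simp only [hφx]
        rw [← pow_mul, ← pow_succ]
      · have hk1 : Even (k + 1) := by rw [Nat.even_add_one]; exact hk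
        rw [if_neg hk, if_pos hk1, hfdef]
        simp only [hφx]
        rw [inv_pow, inv_inv, ← pow_mul, ← pow_succ]
  have hfinj : Function.Injective f := by
    intro x y hxy
    simp only [hfdef] at hxy
    exact φ.injective (inv_injective hxy)
  have hinj : Set.InjOn (fun i => f^[i] μ₁) (Finset.range (m - 1) : Set ℕ) := by
    have key : ∀ i k : ℕ, 1 ≤ k → i + k < m - 1 → f^[i] μ₁ ≠ f^[i + k] μ₁ := by
      intro i k hk1 hik heq
      rw [Function.iterate_add_apply] at heq
      have h1 : μ₁ = f^[k] μ₁ := (hfinj.iterate i) heq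
      rw [hiter k] at h1
      apply hno k hk1 (by omega)
      by_cases hk : Even k
      · rw [if_pos hk] at h1 ⊢
        rw [← hord, orderOf_dvd_iff_pow_eq_one]
        have hpos : 1 ≤ (p ^ j) ^ k := Nat.one_le_pow _ _ (pow_pos hp.pos j)
        have h2 : μ₁ ^ ((p ^ j) ^ k - 1) * μ₁ = 1 * μ₁ := by
          rw [← pow_succ, Nat.sub_add_cancel hpos, one_mul]
          exact h1.symm
        exact mul_right_cancel₀ hμ₁0 h2
      · rw [if_neg hk] at h1 ⊢
        rw [← hord, orderOf_dvd_iff_pow_eq_one, pow_succ]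
        have h3 : μ₁ ^ ((p ^ j) ^ k) ≠ 0 := pow_ne_zero _ hμ₁0
        nth_rewrite 2 [h1]
        exact mul_inv_cancel₀ h3
    intro a ha b hb hab
    simp only [Finset.coe_range, Set.mem_Iio] at ha hb
    by_contra hne
    rcases Nat.lt_or_gt_of_ne hne with h | h
    · obtain ⟨k, rfl⟩ := Nat.exists_eq_add_of_lt h
      exact key a (k + 1) (by omega) (by omega) (by simpa [add_assoc] using hab)
    · obtain ⟨k, rfl⟩ := Nat.exists_eq_add_of_lt h
      exact key b (k + 1) (by omega) (by omega) (by simpa [add_assoc] using hab.symm)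
  exact rootMultiplicity_le_one_of_orbit B.charpoly m
    (by rw [Matrix.charpoly_natDegree_eq_dim, Fintype.card_fin]) hm f hf μ₁ hμ₁ hinj

/-- A matrix commuting with a regular semisimple matrix and with `A - 1` nilpotent is `1`. -/
theorem eq_one_of_commute_regular [IsAlgClosed L] (p : ℕ) [Fact p.Prime] [CharP L p] {m : ℕ}
    (r : ℕ) (hpr : ¬ p ∣ r) (A B : Matrix (Fin m) (Fin m) L) (hBr : B ^ r = 1)
    (hreg : ∀ μ, B.charpoly.rootMultiplicity μ ≤ 1) (hAB : A * B = B * A)
    (hA : IsNilpotent (A - 1)) : A = 1 := by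
  classical
  set T : Module.End L (Fin m → L) := Matrix.toLin' B with hT
  set S : Module.End L (Fin m → L) := Matrix.toLin' A with hS
  have hTr : T ^ r = 1 := by
    rw [hT, ← Matrix.toLin'_pow, hBr, Matrix.toLin'_one]; rfl
  have hTch : T.charpoly = B.charpoly := Matrix.charpoly_toLin' B
  have hTss : T.IsSemisimple := isSemisimple_of_pow_eq_one p T r hpr hTr
  have htop := hTss.iSup_eigenspace_eq_top
  have hST : ∀ v, S (T v) = T (S v) := by
    intro v
    rw [hS, hT, Matrix.toLin'_apply, Matrix.toLin'_apply, Matrix.toLin'_apply, Matrix.toLin'_apply,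
      Matrix.mulVec_mulVec, Matrix.mulVec_mulVec, hAB]
  obtain ⟨n, hn⟩ := hA
  have hSn : (S - 1) ^ n = 0 := by
    have h1 : S - 1 = Matrix.toLin' (A - 1) := by
      rw [map_sub, Matrix.toLin'_one]; rfl
    rw [h1, ← Matrix.toLin'_pow, hn, map_zero]
  have hle : ∀ μ, T.eigenspace μ ≤ LinearMap.ker (S - 1) := by
    intro μ v hv
    rw [LinearMap.mem_ker, LinearMap.sub_apply, Module.End.one_apply, sub_eq_zero]
    by_cases hv0 : v = 0
    · rw [hv0, map_zero]
    have hSv : S v ∈ T.eigenspace μ := by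
      rw [Module.End.mem_eigenspace_iff] at hv ⊢
      rw [← hST, hv, map_smul]
    have hfr : Module.finrank L (T.eigenspace μ) ≤ 1 :=
      (LinearMap.finrank_eigenspace_le T μ).trans (hTch ▸ hreg μ)
    have hne : (⟨v, hv⟩ : T.eigenspace μ) ≠ 0 := fun h => hv0 (congrArg Subtype.val h)
    have hpos : 0 < Module.finrank L (T.eigenspace μ) :=
      Module.finrank_pos_iff_exists_ne_zero.mpr ⟨_, hne⟩
    have hfr1 : Module.finrank L (T.eigenspace μ) = 1 := by omega
    obtain ⟨c, hc⟩ := (finrank_eq_one_iff_of_nonzero' (⟨v, hv⟩ : T.eigenspace μ) hne).mp hfr1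
      ⟨S v, hSv⟩
    have hc' : S v = c • v := (congrArg Subtype.val hc).symm
    have hk : ∀ k : ℕ, ((S - 1) ^ k) v = (c - 1) ^ k • v := by
      intro k
      induction k with
      | zero => simp
      | succ k ih =>
        have h0 : c • v - v = (c - 1) • v := by rw [sub_smul, one_smul]
        rw [pow_succ, Module.End.mul_apply, LinearMap.sub_apply, Module.End.one_apply, hc',
          h0, map_smul, ih, smul_smul, pow_succ, mul_comm]
    have h1 := hk n
    rw [hSn, LinearMap.zero_apply] at h1
    rcases smul_eq_zero.mp h1.symm with h2 | h2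
    · have h3 : c = 1 := sub_eq_zero.mp (eq_zero_of_pow_eq_zero h2)
      rw [hc', h3, one_smul]
    · exact absurd h2 hv0
  have hker : LinearMap.ker (S - 1) = ⊤ := by
    rw [eq_top_iff, ← htop]
    exact iSup_le hle
  have hS1 : S = 1 := by
    apply LinearMap.ext
    intro v
    have hv : v ∈ LinearMap.ker (S - 1) := by rw [hker]; trivial
    rw [LinearMap.mem_ker, LinearMap.sub_apply, Module.End.one_apply, sub_eq_zero] at hv
    rw [hv, Module.End.one_apply]
  apply Matrix.toLin'.injective
  rw [← hS, hS1, Matrix.toLin'_one]; rfl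

end UnitaryEig

end Cfsg.Agent.H45
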